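import Cfsg.Agent.S0256
import Cfsg.Agent.H2.RgdPSL
import Cfsg.Agent.H2.Up

/-!
# `LfRow` for `A₈`, `A₉` (helper2)
-/

set_option autoImplicit false

namespace Cfsg.Agent.H2.ANine

open Cfsg Equiv

theorem row_eight' : LfRow (alternatingGroup (Fin 8)) := by
  obtain ⟨e⟩ := S0256.result (F := ZMod 2) (ZMod.card 2)
  have : IsSimpleGroup (alternatingGroup (Fin 8)) := alternatingGroup.isSimpleGroup (by simp)
  refine RgdPSL.row_psl_four (F := ZMod 2) (fun h => ?_) e.symm
  have h1 : Subgroup.center (alternatingGroup (Fin 8)) = ⊥ := alternatingGroup.center_eq_bot (by simp)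
  have h2 : Subgroup.center (alternatingGroup (Fin 8)) = ⊤ := Subgroup.center_eq_top_iff.2 h
  rw [h1] at h2
  exact bot_ne_top h2

/-- the embedding `A₈ → A₉` -/
def f89 : Fin 8 ≃ {x : Fin 9 // x ≠ Fin.last 8} where
  toFun i := ⟨i.castSucc, (Fin.castSucc_lt_last i).ne⟩
  invFun x := ⟨x.1.1, by have := x.2; have := x.1.2; have h : x.1.1 ≠ 8 := fun h => x.2 (Fin.ext h); omega⟩
  left_inv i := rfl
  right_inv x := rfl

def emb : alternatingGroup (Fin 8) →* alternatingGroup (Fin 9) :=
  ((Perm.extendDomainHom f89).comp (alternatingGroup (Fin 8)).subtype).codRestrict _ fun g => by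
    rw [Perm.mem_alternatingGroup]
    show Perm.sign (Perm.extendDomain (g : Perm (Fin 8)) f89) = 1
    rw [Perm.sign_extendDomain]
    exact Perm.mem_alternatingGroup.1 g.2

theorem emb_injective : Function.Injective emb := by
  intro a b h
  have h1 := congrArg Subtype.val h
  exact Subtype.ext (Perm.extendDomainHom_injective f89 h1)

theorem row_nine' : LfRow (alternatingGroup (Fin 9)) := by
  refine row_eight'.up_card emb emb_injective (m := 9) ?_ (by norm_num)
  have h1 := two_mul_nat_card_alternatingGroup (α := Fin 9)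
  have h2 := two_mul_nat_card_alternatingGroup (α := Fin 8)
  rw [Nat.card_perm, Nat.card_fin] at h1 h2
  have h3 : Nat.factorial 9 = 9 * Nat.factorial 8 := rfl
  omega

/-- **`LfRow` for `A₈`** -/
theorem row_eight {G : Type*} [Group G] (e : G ≃* alternatingGroup (Fin 8)) : LfRow G := row_eight'.congr e.symm

/-- **`LfRow` for `A₉`** -/
theorem row_nine {G : Type*} [Group G] (e : G ≃* alternatingGroup (Fin 9)) : LfRow G := row_nine'.congr e.symm

end Cfsg.Agent.H2.ANine
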