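import Mathlib

/-!
# Groups in which the involutions of a Sylow 2-subgroup commute (helper2)
-/

set_option autoImplicit false

namespace Cfsg.Agent.H2

open Subgroup

/-- two involutions in a common 2-subgroup commute -/
def CommInv (X : Type*) [Group X] : Prop :=
  ∀ P : Subgroup X, IsPGroup 2 P → ∀ x ∈ P, ∀ y ∈ P, x * x = 1 → y * y = 1 → x * y = y * x

variable {X Y : Type*} [Group X] [Group Y]

theorem CommInv.of_injective (h : CommInv Y) (f : X →* Y) (hf : Function.Injective f) : CommInv X := by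
  intro P hP x hx y hy hxx hyy
  apply hf
  rw [map_mul, map_mul]
  exact h (P.map f) (hP.map f) (f x) ⟨x, hx, rfl⟩ (f y) ⟨y, hy, rfl⟩ (by rw [← map_mul, hxx, map_one])
    (by rw [← map_mul, hyy, map_one])

theorem CommInv.congr (e : X ≃* Y) (h : CommInv Y) : CommInv X := h.of_injective e.toMonoidHom e.injective

/-- one Sylow 2-subgroup -/
theorem CommInv.of_sylow [Finite X] (P : Sylow 2 X)
    (h : ∀ x ∈ P, ∀ y ∈ P, x * x = 1 → y * y = 1 → x * y = y * x) : CommInv X := by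
  have hf : Fact (Nat.Prime 2) := ⟨Nat.prime_two⟩
  intro R hR x hx y hy hxx hyy
  obtain ⟨R', hR'⟩ := hR.exists_le_sylow
  obtain ⟨g, hg⟩ := MulAction.exists_smul_eq X R' P
  have key : ∀ z ∈ R, g * z * g⁻¹ ∈ P := by
    intro z hz
    have h1 : g * z * g⁻¹ ∈ ((g • R' : Sylow 2 X) : Subgroup X) := by
      rw [Sylow.coe_subgroup_smul]
      exact ⟨z, hR' hz, rfl⟩
    rw [hg] at h1
    exact h1
  have h1 := h _ (key x hx) _ (key y hy) (by
    rw [show g * x * g⁻¹ * (g * x * g⁻¹) = g * (x * x) * g⁻¹ by group, hxx]; group) (by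
    rw [show g * y * g⁻¹ * (g * y * g⁻¹) = g * (y * y) * g⁻¹ by group, hyy]; group)
  have h2 : g * (x * y) * g⁻¹ = g * (y * x) * g⁻¹ := by
    calc g * (x * y) * g⁻¹ = g * x * g⁻¹ * (g * y * g⁻¹) := by group
      _ = g * y * g⁻¹ * (g * x * g⁻¹) := h1
      _ = _ := by group
  exact mul_left_cancel (mul_right_cancel h2)

/-- two involutions with a product of 2-power order lie in a common 2-subgroup -/
theorem exists_two_group {x y : X} (hx : x * x = 1) (hy : y * y = 1) {k : ℕ} (hk : (x * y) ^ 2 ^ k = 1) :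
    ∃ P : Subgroup X, IsPGroup 2 P ∧ x ∈ P ∧ y ∈ P := by
  have hxi : x⁻¹ = x := inv_eq_of_mul_eq_one_left hx
  have hyi : y⁻¹ = y := inv_eq_of_mul_eq_one_left hy
  have hA : IsPGroup 2 (zpowers x) := by
    rintro ⟨_, ⟨m, rfl⟩⟩
    refine ⟨1, Subtype.ext ?_⟩
    show (x ^ m) ^ 2 ^ 1 = 1
    rw [pow_one, ← zpow_natCast, ← zpow_mul, mul_comm, zpow_mul]
    norm_cast
    rw [pow_two, hx, one_zpow]
  have hB : IsPGroup 2 (zpowers (x * y)) := by
    rintro ⟨_, ⟨m, rfl⟩⟩
    refine ⟨k, Subtype.ext ?_⟩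
    show ((x * y) ^ m) ^ 2 ^ k = 1
    rw [← zpow_natCast, ← zpow_mul, mul_comm, zpow_mul, zpow_natCast, hk, one_zpow]
  have hn : zpowers x ≤ normalizer (zpowers (x * y) : Set X) := by
    rw [zpowers_le, mem_normalizer_iff]
    have key : ∀ z ∈ zpowers (x * y), x * z * x⁻¹ ∈ zpowers (x * y) := by
      rintro _ ⟨m, rfl⟩
      refine ⟨-m, ?_⟩
      show (x * y) ^ (-m) = x * (x * y) ^ m * x⁻¹
      rw [← conj_zpow, zpow_neg, ← inv_zpow]
      congr 1
      rw [mul_inv_rev, hxi, hyi, ← mul_assoc, hx, one_mul]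
    intro z
    refine ⟨key z, fun h => ?_⟩
    have h1 := key _ h
    have e : x * (x * z * x⁻¹) * x⁻¹ = z := by
      calc x * (x * z * x⁻¹) * x⁻¹ = (x * x) * z * (x * x)⁻¹ := by group
        _ = z := by rw [hx]; group
    rwa [e] at h1
  refine ⟨zpowers x ⊔ zpowers (x * y), IsPGroup.to_sup_of_normal_right' hA hB hn, mem_sup_left (mem_zpowers x), ?_⟩
  have h1 : x⁻¹ * (x * y) ∈ zpowers x ⊔ zpowers (x * y) :=
    mul_mem (inv_mem (mem_sup_left (mem_zpowers x))) (mem_sup_right (mem_zpowers (x * y)))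
  rwa [inv_mul_cancel_left] at h1

theorem CommInv.comm (h : CommInv X) {x y : X} (hx : x * x = 1) (hy : y * y = 1) {k : ℕ} (hk : (x * y) ^ 2 ^ k = 1) :
    x * y = y * x := by
  obtain ⟨P, hP, h1, h2⟩ := exists_two_group hx hy hk
  exact h P hP x h1 y h2 hx hy

end Cfsg.Agent.H2
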