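import Cfsg.Agent.QTUnique.HS
import Cfsg.Agent.QTUnique.GenTools
import Cfsg.Agent.H2.LfRow

/-!
# `LfRow` for `HS` (helper2)

The Sylow 2-subgroup `T` normalizes an elementary abelian subgroup of order 8, whose normalizer contains elements `x`, `y`
with `x² = y³ = (x y)⁷ = 1`.
-/

set_option autoImplicit false
set_option maxRecDepth 100000

namespace Cfsg.Agent.H2.HS

open Cfsg Subgroup Cfsg.Agent.HN Cfsg.Agent.HN.Pres Cfsg.Agent.HN.HS100 Cfsg.Agent.HN.H0Basic Cfsg.Agent.HN.P1408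
open Cfsg.Agent.HN.Classes Cfsg.Agent.HN.WMask Cfsg.Agent.KFacts.HS Cfsg.Agent.KFacts.HS.Cent
open Cfsg.Agent.QTUnique Cfsg.Agent.QTUnique.HS

/-- the words of the generators of `V` -/
def vw (i : Fin 3) : List ℕ := Syl.sw (match i with | 0 => 1 | 1 => 2 | 2 => 5)

/-- an involution -/
def xw : List ℕ := [0, 4, 2, 2, 2, 0, 4]

/-- an element of order 3 -/
def y3 : List ℕ := [4, 2, 2, 4, 2, 4, 2, 2, 2, 4, 2, 0, 2, 2, 0, 2, 2, 2, 0, 3, 4, 3, 0, 2, 2, 0, 2, 2, 0, 2, 2, 2, 0, 3, 4, 3, 0, 2, 2]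

/-- the images of the generators -/
def tb : ℕ → Fin 3 → List (Fin 3)
  | 4, 2 => [0, 2]
  | 7, 1 => [0, 1]
  | 7, 2 => [0, 2]
  | 8, 1 => [0, 1]
  | 8, 2 => [0, 2]
  | 9, 2 => [0, 1, 2]
  | _, i => [i]

def tx : Fin 3 → List (Fin 3) := ![[0], [0, 1], [0, 2]]
def ty : Fin 3 → List (Fin 3) := ![[1], [0, 1, 2], [2]]

theorem chkT : ∀ k < 11, ∀ i : Fin 3, ∀ j < 100,
    t1 (Syl.sw k ++ vw i) j = t1 ((tb k i).flatMap vw ++ Syl.sw k) j := by decide +kernel

theorem chkX : ∀ i : Fin 3, ∀ j < 100, t1 (xw ++ vw i) j = t1 ((tx i).flatMap vw ++ xw) j := by decide +kernel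
theorem chkY : ∀ i : Fin 3, ∀ j < 100, t1 (y3 ++ vw i) j = t1 ((ty i).flatMap vw ++ y3) j := by decide +kernel

theorem chkP : (∀ j < 100, t1 (xw ++ xw) j = t1 [] j) ∧ (∀ j < 100, t1 (y3 ++ (y3 ++ y3)) j = t1 [] j) ∧
    (∀ j < 100, t1 ((List.replicate 7 (xw ++ y3)).flatten) j = t1 [] j) := by decide +kernel

theorem chkZ : (∀ j < 100, t1 (Syl.sw 1) j = t1 zw j) ∧ t1 (y3 ++ zw) 0 ≠ t1 (zw ++ y3) 0 := by decide +kernel

/-- the group `V` on 100 points -/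
def V3 : Subgroup (Equiv.Perm (Fin 100)) := closure (Set.range fun i : Fin 3 => φ (hw (vw i)))

theorem φ_flatMap_mem (l : List (Fin 3)) : φ (hw (l.flatMap vw)) ∈ V3 := by
  induction l with
  | nil => rw [List.flatMap_nil, hw_nil, map_one]; exact one_mem _
  | cons i l ih =>
    rw [List.flatMap_cons, hw_append, map_mul]
    exact mul_mem (subset_closure ⟨i, rfl⟩) ih

theorem norm_of {w : List ℕ} {t : Fin 3 → List (Fin 3)}
    (h : ∀ i : Fin 3, ∀ j < 100, t1 (w ++ vw i) j = t1 ((t i).flatMap vw ++ w) j) :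
    φ (hw w) ∈ normalizer (V3 : Set (Equiv.Perm (Fin 100))) := by
  apply GenTools.mem_normalizer_closure'
  rintro _ ⟨i, rfl⟩
  refine ⟨φ (hw ((t i).flatMap vw)), φ_flatMap_mem _, ?_⟩
  rw [← map_mul, ← map_mul, ← hw_append, ← hw_append]
  exact φ_eq_of (h i)

theorem S_le {s : H0} (hs : s ∈ Syl.S) : φ s ∈ normalizer (V3 : Set (Equiv.Perm (Fin 100))) := by
  have h : Syl.S ≤ (normalizer (V3 : Set (Equiv.Perm (Fin 100)))).comap φ := by
    show Subgroup.closure _ ≤ _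
    rw [Subgroup.closure_le]
    rintro _ ⟨k, hk, rfl⟩
    exact norm_of (chkT k hk)
  exact h hs

section

variable {L : Type*} [Group L] (D : KFacts.HS.Mod L)

theorem vw_mem (i : Fin 3) : hw (vw i) ∈ K := by
  fin_cases i <;> exact mem_K_of_par rfl rfl

theorem xw_mem : hw xw ∈ K := mem_K_of_par rfl rfl
theorem y3_mem : hw y3 ∈ K := mem_K_of_par rfl rfl

theorem vw_T (i : Fin 3) : D.π ⟨hw (vw i), vw_mem i⟩ ∈ QTUnique.HS.T D := by
  have h1 : hw (vw i) ∈ Syl.S := by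
    fin_cases i
    · exact Syl.s_mem_S (i := 1) (by norm_num)
    · exact Syl.s_mem_S (i := 2) (by norm_num)
    · exact Syl.s_mem_S (i := 5) (by norm_num)
  exact ⟨⟨hw (vw i), vw_mem i⟩, FusK0.mem_S0.2 h1, rfl⟩

/-- `V` in `L` -/
noncomputable def V3L : Subgroup L := V3.comap D.φL

theorem V3L_le : V3L D ≤ (QTUnique.HS.T D : Subgroup L) := by
  have h1 : V3 ≤ (QTUnique.HS.T D : Subgroup L).map D.φL := by
    show Subgroup.closure _ ≤ _
    rw [closure_le]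
    rintro _ ⟨i, rfl⟩
    exact ⟨_, vw_T D i, D.φL_π _⟩
  intro x hx
  obtain ⟨y, hy, hyx⟩ := h1 hx
  rw [← D.φL_inj hyx]
  exact hy

theorem mem_normalizer_V3L {x : L} (hx : D.φL x ∈ normalizer (V3 : Set (Equiv.Perm (Fin 100)))) :
    x ∈ normalizer (V3L D : Set L) := by
  rw [mem_normalizer_iff] at hx ⊢
  intro y
  have := hx (D.φL y)
  rw [← map_mul, ← map_inv, ← map_mul] at this
  exact this

theorem T_le : (QTUnique.HS.T D : Subgroup L) ≤ normalizer (V3L D : Set L) := by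
  rintro _ ⟨s, hs, rfl⟩
  apply mem_normalizer_V3L
  rw [show D.φL (D.π s) = φ s from D.φL_π s]
  exact S_le (FusK0.mem_S0.1 hs)

theorem pow_one_of {w : List ℕ} (hw' : hw w ∈ K) (n : ℕ) (h : ∀ j < 100, t1 ((List.replicate n w).flatten) j = t1 [] j) :
    D.π ⟨hw w, hw'⟩ ^ n = 1 := by
  apply D.φL_inj
  rw [map_pow, map_one, show D.φL (D.π ⟨hw w, hw'⟩) = φ (hw w) from D.φL_π _]
  have h1 : ∀ m : ℕ, hw ((List.replicate m w).flatten) = hw w ^ m := by
    intro m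
    induction m with
    | zero => simp [hw_nil]
    | succ m ih => rw [List.replicate_succ, List.flatten_cons, hw_append, ih, pow_succ']
  rw [← map_pow, ← h1, φ_eq_of h, hw_nil, map_one]

include D in
theorem row_of_mod : LfRow L := by
  have h2 : Fact (Nat.Prime 2) := ⟨Nat.prime_two⟩
  have hL : Finite L := D.finite
  have hxy : D.π ⟨hw xw, xw_mem⟩ * D.π ⟨hw y3, y3_mem⟩ = D.π ⟨hw (xw ++ y3), mem_K_of_par rfl rfl⟩ := by
    rw [← map_mul]
    exact congrArg D.π (Subtype.ext (hw_append _ _).symm)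
  refine LfRow.of_one (QTUnique.HS.T D) (LfAt.of_pair (QTUnique.HS.T D) (V3L_le D) (T_le D) (z := D.z) ?_ D.zz ?_
    (x := D.π ⟨hw xw, xw_mem⟩) (y := D.π ⟨hw y3, y3_mem⟩) ?_ ?_ (a := 2) (b := 3) (c := 7) ?_ ?_ ?_ (by norm_num)
    (by norm_num) (by norm_num) (Or.inr ?_))
  · show D.φL D.z ∈ V3
    rw [φL_z, ← φ_eq_of chkZ.1]
    exact subset_closure ⟨0, rfl⟩
  · intro t ht
    exact T_z D ht
  · apply mem_normalizer_V3L
    rw [show D.φL (D.π ⟨hw xw, xw_mem⟩) = φ (hw xw) from D.φL_π _]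
    exact norm_of chkX
  · apply mem_normalizer_V3L
    rw [show D.φL (D.π ⟨hw y3, y3_mem⟩) = φ (hw y3) from D.φL_π _]
    exact norm_of chkY
  · exact pow_one_of D xw_mem 2 (by simpa using chkP.1)
  · exact pow_one_of D y3_mem 3 (by simpa using chkP.2.1)
  · rw [hxy]
    exact pow_one_of D _ 7 chkP.2.2
  · intro h
    have h1 := congrArg D.φL h
    rw [map_mul, map_mul, φL_z, show D.φL (D.π ⟨hw y3, y3_mem⟩) = φ (hw y3) from D.φL_π _, ← map_mul, ← map_mul,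
      ← hw_append, ← hw_append] at h1
    have h3 := congrArg (fun f : Equiv.Perm (Fin 100) => ((f 0 : Fin 100) : ℕ)) h1
    exact chkZ.2 ((φ_hw_apply _ 0).symm.trans (h3.trans (φ_hw_apply _ 0)))

end

/-- **`LfRow` for `HS`** -/
theorem row {G : Type*} [Group G] (h : Spor.IsoHS G) : LfRow G := by
  obtain ⟨D⟩ := exists_mod h
  exact row_of_mod D

end Cfsg.Agent.H2.HS
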