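import Cfsg.Agent.SporadicA.M24Trans
import Cfsg.Agent.H2.GolayEv

/-!
# `LfRow` for `M24` (helper2)

`V` is the pointwise stabilizer of an octad, of order 16; `x`, `y` normalize `V`, `x² = y³ = (x y)⁷ = 1`.
-/

set_option autoImplicit false
set_option maxRecDepth 100000

namespace Cfsg.Agent.H2.MTwentyFour

open Cfsg Subgroup Cfsg.Agent.GH.Pc Cfsg.Agent.SporadicStructure.M24El Cfsg.Agent.H2.WM Cfsg.Agent.H2.GolayEv

/-- a polycyclic series of a Sylow 2-subgroup, `x` and `y` -/
def gl : List ℕ := [677844925350602949116656272327951401, 481973049266706397460587748970956832,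
  795122888977552842629103009963022373, 944577587031269305143011292255193120, 187761162640318985090947153890183200,
  475933736082641786795943807898714146, 508424969373168542556093275671365760, 596693691629046116550990400692717664,
  191695004616971959853057081215289728, 475973014991519506389066485154253216, 802421224427592736828224465130636521,
  437027273597165508712294632722044128]

theorem gl_ok : ∀ P ∈ gl, ok P = true := by decide +kernel

def P : Pres 10 where
  sq i := match i.val with
    | 2 => [5]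
    | _ => []
  cj i j := match i.val, j.val with
    | 0, 1 => [1, 2, 3, 5]
    | 0, 2 => [2, 5]
    | 0, 3 => [3, 5]
    | 0, 4 => [4, 5]
    | 0, 6 => [6, 7, 8]
    | 1, 2 => [2, 4]
    | 1, 3 => [3, 4]
    | 1, 6 => [6, 9]
    | 1, 7 => [7, 8, 9]
    | 2, 3 => [3, 5]
    | 2, 6 => [6, 7, 8]
    | 2, 8 => [8, 9]
    | 3, 6 => [6, 7]
    | 3, 8 => [8, 9]
    | 4, 6 => [6, 8]
    | 4, 7 => [7, 9]
    | 5, 6 => [6, 9]
    | _, _ => [j]

theorem P_ok : P.Ok := by decide

def tw (i : Fin 10) : List ℕ := [i.val]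

def vw : Fin 4 → List (Fin 10) := ![[6], [7], [8], [9]]

def tT (k : Fin 10) : Fin 4 → List (Fin 4) :=
  match k.val with
  | 0 => ![[0, 1, 2], [1], [2], [3]]
  | 1 => ![[0, 3], [1, 2, 3], [2], [3]]
  | 2 => ![[0, 1, 2], [1], [2, 3], [3]]
  | 3 => ![[0, 1], [1], [2, 3], [3]]
  | 4 => ![[0, 2], [1, 3], [2], [3]]
  | 5 => ![[0, 3], [1], [2], [3]]
  | _ => ![[0], [1], [2], [3]]

def tx : Fin 4 → List (Fin 4) := ![[0, 3], [1, 3], [2, 3], [3]]
def ty : Fin 4 → List (Fin 4) := ![[0], [1, 2, 3], [1, 2], [2]]

theorem row_24 : LfRow M24 :=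
  (ev24 gl_ok).row P_ok tw (by decide +kernel) (by decide +kernel) (by decide +kernel)
    (by rw [Cfsg.Agent.SporadicA.M24Trans.card_M24]; decide) vw tT (by decide +kernel) [3]
    (by decide +kernel) (by decide +kernel) [10] [11] tx ty (by decide +kernel) (by decide +kernel) (a := 2) (b := 3)
    (c := 7) (by decide +kernel) (by decide +kernel) (by decide +kernel) (by norm_num) (by norm_num) (by norm_num)
    (by decide +kernel)

/-- **`LfRow` for `M24`** -/
theorem row {G : Type*} [Group G] (h : Spor.IsoM24 G) : LfRow G := by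
  obtain ⟨e⟩ := h
  exact row_24.congr e.symm

end Cfsg.Agent.H2.MTwentyFour
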