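import Cfsg.Agent.H2.GolayEv

/-!
# `LfRow` for `M22` (helper2)

`V` is the pointwise stabilizer of a hexad, of order 16; `x`, `y` normalize `V`, `x² = y³ = (x y)⁵ = 1`.
-/

set_option autoImplicit false
set_option maxRecDepth 100000

namespace Cfsg.Agent.H2.MTwentyTwo

open Cfsg Subgroup Cfsg.Agent.GH.Pc Cfsg.Agent.SporadicStructure.M24El Cfsg.Agent.H2.WM Cfsg.Agent.H2.GolayEv

/-- a polycyclic series of a Sylow 2-subgroup, `x` and `y` -/
def gl : List ℕ := [976990105829392847739289005721748544, 984724508489452699215480746259449888,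
  984202951082164080105044112956360736, 965128854020860192151391391390468128, 979121071158219704299181131031480352,
  972512676110088067912772961567868960, 976448692869377735270425038196672544, 976768299277413956938701513523627072,
  965010690152576531343407554825849280]

theorem gl_ok : ∀ P ∈ gl, fx P = true := by decide +kernel

def P : Pres 7 where
  sq _ := []
  cj i j := match i.val, j.val with
    | 0, 1 => [1, 2]
    | 0, 3 => [3, 4, 5, 6]
    | 0, 4 => [4, 6]
    | 0, 5 => [5, 6]
    | 1, 3 => [3, 5, 6]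
    | 1, 4 => [4, 5]
    | 2, 3 => [3, 5]
    | 2, 4 => [4, 6]
    | _, _ => [j]

theorem P_ok : P.Ok := by decide

def tw (i : Fin 7) : List ℕ := [i.val]

def vw : Fin 4 → List (Fin 7) := ![[3], [4], [5], [6]]

def tT (k : Fin 7) : Fin 4 → List (Fin 4) :=
  match k.val with
  | 0 => ![[0, 1, 2, 3], [1, 3], [2, 3], [3]]
  | 1 => ![[0, 2, 3], [1, 2], [2], [3]]
  | 2 => ![[0, 2], [1, 3], [2], [3]]
  | _ => ![[0], [1], [2], [3]]

def tx : Fin 4 → List (Fin 4) := ![[0, 1], [1], [2, 3], [3]]
def ty : Fin 4 → List (Fin 4) := ![[1, 3], [2], [1, 2], [0, 1, 2, 3]]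

theorem row_22 : LfRow Spor.M22 :=
  (ev22 gl_ok).row P_ok tw (by decide +kernel) (by decide +kernel) (by decide +kernel)
    (by rw [Cfsg.Agent.SporadicA.MathieuRecog.card_M22]; decide) vw tT (by decide +kernel) [3]
    (by decide +kernel) (by decide +kernel) [7] [8] tx ty (by decide +kernel) (by decide +kernel) (a := 2) (b := 3) (c := 5)
    (by decide +kernel) (by decide +kernel) (by decide +kernel) (by norm_num) (by norm_num) (by norm_num)
    (by decide +kernel)

/-- **`LfRow` for `M22`** -/
theorem row {G : Type*} [Group G] (h : Spor.IsoM22 G) : LfRow G := by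
  obtain ⟨e⟩ := h
  exact row_22.congr e.symm

end Cfsg.Agent.H2.MTwentyTwo
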