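import Cfsg.Agent.H2.Rgd
import Cfsg.Agent.H1.RowPSL
import Cfsg.Agent.H1.RowChev

/-!
# `LfRow` for `L₃(q)`, `PSp₄(q)`, `G₂(q)`, `³D₄(q)`, `q ≥ 4` even (helper2)
-/

set_option autoImplicit false
set_option linter.unusedSectionVars false

namespace Cfsg.Agent.H2.RgdRows

open Cfsg Cfsg.Lie Matrix
open CoxeterSystem Cfsg.Agent.ChevalleyStructure.CoxeterGeom Cfsg.Agent.Tits.Roots Cfsg.Agent.Tits.Core
  Cfsg.Agent.Nodes.BNOf
open Cfsg.Agent.H1.RgdRow Cfsg.Agent.H1.RankTwo Cfsg.Agent.H1.RowExc Cfsg.Agent.H2.Rgd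
open scoped commutatorElement

universe u v w

theorem perfect_range {Q Y : Type*} [Group Q] [Group Y] (hQ : Group.IsPerfect Q) (φ : Q →* Y) :
    ⁅φ.range, φ.range⁆ = φ.range := by
  rw [MonoidHom.range_eq_map, ← Subgroup.map_commutator]
  congr 1
  exact (Group.isPerfect_def).1 hQ

/-- the centre of a group isomorphic to a nonabelian simple group -/
theorem center_eq_bot {G Y : Type*} [Group G] [IsSimpleGroup G] [Group Y] (hG : ¬ IsMulCommutative G) (e : G ≃* Y) :
    Subgroup.center Y = ⊥ := by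
  have h1 : Subgroup.center G = ⊥ := by
    rcases (inferInstance : (Subgroup.center G).Normal).eq_bot_or_eq_top with h | h
    · exact h
    · exact (hG (by rwa [← Subgroup.center_eq_top_iff])).elim
  rw [eq_bot_iff]
  intro y hy
  have h2 : e.symm y ∈ Subgroup.center G := by
    rw [Subgroup.mem_center_iff] at hy ⊢
    intro g
    apply e.injective
    rw [map_mul, map_mul, e.apply_symm_apply]
    exact hy (e g)
  rw [h1, Subgroup.mem_bot] at h2
  rw [Subgroup.mem_bot, ← e.apply_symm_apply y, h2, map_one]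

theorem perfect_sl (F : Type w) [Field F] [Fintype F] [CharP F 2] (h4 : 4 ≤ Fintype.card F) :
    Group.IsPerfect (SpecialLinearGroup (Fin 2) F) := by
  have := simple_sl F h4
  exact (isQuasisimple_of_simple _ (not_comm_sl F h4)).1

section psl

open Cfsg.Agent.H1.RowPSL Cfsg.Agent.H1.EmbSL Cfsg.Agent.Nodes.RGDTypeA Cfsg.Agent.LieClassical.SLGen

variable {F : Type w} [Field F] [Fintype F] [CharP F 2]

/-- **`L₃(q)`, `q ≥ 4` even** -/
theorem row_psl_three (h4 : 4 ≤ Fintype.card F) {G : Type v} [Group G] [IsSimpleGroup G] (hG : ¬ IsMulCommutative G)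
    (e : G ≃* ProjectiveSpecialLinearGroup (Fin 3) F) : LfRow G := by
  have : Finite (ProjectiveSpecialLinearGroup (Fin (2 + 1)) F) := Quotient.finite _
  obtain ⟨Φ, _, R, -⟩ := exists_filt (F := F) 2
  refine LfRow.congr' e (lfRow_of_rgd R (Nodes.RGDTypeA.G1_psl_eq_top _ _) (center_eq_bot hG e) fun i => ?_)
  unfold KK
  rw [← range_pair]
  exact perfect_range (perfect_sl F h4) _

end psl

section chev

open Cfsg.Agent.Nodes.RGDChev Cfsg.Agent.H1.RowChev

variable {D : ChevalleyDatum} {M : CoxeterMatrix (Fin 2)} {K : Type u} [Field K] [Fintype K] [CharP K 2]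

theorem row_chev (hp : IsType D 2 M) (h4 : 4 ≤ Fintype.card K) {G : Type v} [Group G] [IsSimpleGroup G]
    (hG : ¬ IsMulCommutative G) (e : G ≃* ↥(D.group K)) : LfRow G := by
  have : Finite M.Group := finite_W hp M.toCoxeterSystem
  refine LfRow.congr' e (lfRow_of_filt (Cfsg.Agent.KFacts.RgdFiltChev.filt (K := K) hp M.toCoxeterSystem 2)
    (G1_eq_top hp M.toCoxeterSystem) (center_eq_bot hG e) fun i => ?_)
  obtain ⟨φ, hφ⟩ := Cfsg.Agent.H1.RowChev.range_chev hp (K := K) i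
  unfold KK
  rw [← hφ]
  exact perfect_range (perfect_sl K h4) _

/-- **`PSp₄(q)`, `q ≥ 4` even** -/
theorem row_pSp (h4 : 4 ≤ Fintype.card K) {G : Type v} [Group G] [IsSimpleGroup G]
    (hG : ¬ IsMulCommutative G) (e : G ≃* PSp 2 K) : LfRow G := by
  obtain ⟨f⟩ := ChevalleyStructure.B2Sp4.chevB2_equiv_PSp K
  exact row_chev (D := chevB2) (M := CoxeterMatrix.B 2) (by simp [IsType, typeList]) h4 hG (e.trans f.symm)

/-- **`G₂(q)`, `q ≥ 4` even** -/
theorem row_gTwo (h4 : 4 ≤ Fintype.card K) {G : Type v} [Group G] [IsSimpleGroup G]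
    (hG : ¬ IsMulCommutative G) (e : G ≃* ↥(chevG2.group K)) : LfRow G :=
  row_chev Cfsg.Agent.BiChar.GTwo.isType h4 hG e

end chev

section TwDFour

open Cfsg.Agent.Nodes.RGDChev Cfsg.Agent.BiChar.RankPar Cfsg.Agent.BiChar
open Cfsg.Agent.ChevalleyStructure Cfsg.Agent.Nodes.RGDFoldSL

variable {K : Type} [Field K] [Fintype K] [CharP K 2] {q : ℕ}

/-- **`³D₄(q)`, `q ≥ 4` even** -/
theorem row_twD4 (hq : IsPrimePow q) (h4 : 4 ≤ q) (hK : Fintype.card K = q ^ 3) {G : Type v} [Group G] [IsSimpleGroup G]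
    (hG : ¬ IsMulCommutative G) (e : G ≃* ↥(twistedD4 K q)) : LfRow G := by
  obtain ⟨φ, hφ⟩ := D4Fixed.exists_frob hq hK
  have hle := D4Fixed.twisted_le_fix hK hφ
  have : Finite CoxeterMatrix.G₂.Group := Nodes.RGDChev.finite_W GTwo.isType TwDFour.cs
  have hfin : ∀ i : Fin 2, Finite (Fx φ ((Nodes.RGDTwNode.D4.rest i).length + 1)) := fun i => inferInstance
  have hch : ∀ i : Fin 2, CharP (Fx φ ((Nodes.RGDTwNode.D4.rest i).length + 1)) 2 := fun i =>
    (RingHom.charP_iff _ (Fx φ ((Nodes.RGDTwNode.D4.rest i).length + 1)).subtype.injective 2).2 inferInstance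
  let hft : ∀ i : Fin 2, Fintype (Fx φ ((Nodes.RGDTwNode.D4.rest i).length + 1)) := fun i => Fintype.ofFinite _
  have hcard : ∀ i : Fin 2, 4 ≤ Fintype.card (Fx φ ((Nodes.RGDTwNode.D4.rest i).length + 1)) := by
    intro i
    rw [← Nat.card_eq_fintype_card]
    fin_cases i
    · exact (card_Fx_one hφ hq hK).symm ▸ h4
    · refine (card_Fx_three hφ hK).symm ▸ (h4.trans ?_)
      exact Nat.le_self_pow (by norm_num) q
  refine LfRow.congr' e (lfRow_of_filt (Cfsg.Agent.KFacts.RgdFiltTwAll.filt_fold TwDFour.cs Nodes.RGDTwD4.isCartan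
    Nodes.RGDTwD4.foldData (Nodes.RGDTwD4.foldGrp hφ hle) 2) (Nodes.RGDTwD4.G1_eq_top TwDFour.cs hK hφ)
    (center_eq_bot hG e) fun i => ?_)
  have h1 := perfect_range (perfect_sl _ (hcard i)) (TwDFour.Ph hφ hle i)
  rw [TwDFour.range_Ph hφ hle hK i] at h1
  exact h1

end TwDFour

end Cfsg.Agent.H2.RgdRows
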