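import Cfsg.Agent.QTUnique.Ru
import Cfsg.Agent.H2.Eight

/-!
# `LfRow` for `Ru` (helper2)

`Z = {z b : b ∈ F₈}` of order 8 is normal in a Sylow 2-subgroup `P`, and the dilates act on `Z` with order 7.
-/

set_option autoImplicit false
set_option maxRecDepth 100000

namespace Cfsg.Agent.H2.Ru

open Cfsg Subgroup Cfsg.Agent.RuB Cfsg.Agent.RuB.Core Cfsg.Agent.RuB.NormZ Cfsg.Agent.RuB.NormQ Cfsg.Agent.KFacts.Ru
open Cfsg.Agent.Ru127.Form (nor mem_nor mem_cj LocalData cj)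
open Cfsg.Agent.QTUnique.Ru

variable {G : Type*} [Group G]

theorem card_K8 : Nat.card K8 = 8 := by
  rw [Nat.card_eq_fintype_card]
  rfl

theorem z_inj (C : Core G) : Function.Injective C.z := by
  intro a b h
  have h1 : C.z (a + b) = 1 := by rw [C.z_add, h, C.z_sq]
  exact K8.add_eq_zero (C.z_eq_one h1)

theorem card_Zs (C : Core G) : Nat.card ↥(Zs C) = 8 := by
  rw [← card_K8]
  refine (Nat.card_congr (Equiv.ofBijective (fun b : K8 => (⟨C.z b, z_mem_Zs b⟩ : ↥(Zs C))) ⟨?_, ?_⟩)).symm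
  · intro a b h
    exact z_inj C (show C.z a = C.z b from congrArg (fun w : ↥(Zs C) => (w : G)) h)
  · rintro ⟨x, b, rfl⟩
    exact ⟨b, rfl⟩

theorem row_of_core [Finite G] (C : Core G) : LfRow G := by
  have hz1 : C.z 1 ≠ 1 := fun h => one_ne_zero (C.z_eq_one h)
  obtain ⟨P, -, hPz, hPQ, hPn, hPc⟩ := InvC.exists_sylow C
  obtain ⟨k, hk0, hk1⟩ : ∃ k : K8, k ≠ 0 ∧ k ≠ 1 := by decide +kernel
  have hk4 : k ^ 4 ≠ 1 := by
    intro h
    apply hk1
    have h8 := K8.pow_eight k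
    calc k = k ^ 8 := h8.symm
      _ = (k ^ 4) ^ 2 := by rw [← pow_mul]
      _ = 1 := by rw [h, one_pow]
  set u : K8ˣ := Units.mk0 k hk0 with hu
  have hact : ∀ (n : ℕ) (a : K8), (C.dk u) ^ n * C.z a * ((C.dk u) ^ n)⁻¹ = C.z (a * (k ^ 4) ^ n) := by
    intro n
    induction n with
    | zero => intro a; simp
    | succ n ih =>
      intro a
      have h1 : (C.dk u) ^ (n + 1) * C.z a * ((C.dk u) ^ (n + 1))⁻¹ =
          (C.dk u) ^ n * (C.dk u * C.z a * (C.dk u)⁻¹) * ((C.dk u) ^ n)⁻¹ := by rw [pow_succ]; group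
      rw [h1, C.dk_z, ih]
      congr 1
      show a * k ^ 4 * (k ^ 4) ^ n = a * (k ^ 4) ^ (n + 1)
      ring
  refine LfRow.of_one P (LfAt.of_eight P (V := Zs C) (fun x hx => ?_) (fun x hx => mem_normalizer_of_nor (hPn x hx))
    (card_Zs C) ?_ (g := C.dk u) (mem_normalizer_of_nor (dk_mem_nor u)) ?_ ?_ ?_)
  · obtain ⟨b, rfl⟩ := hx
    exact hPQ _ (z_mem_QQ b)
  · rintro _ ⟨b, rfl⟩
    exact C.z_sq b
  · rw [mem_centralizer_iff]
    rintro _ ⟨b, rfl⟩
    have h1 := hact 7 b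
    have h2 : (k ^ 4) ^ 7 = 1 := by
      have h8 := K8.pow_eight (k ^ 4)
      have h9 : k ^ 4 * ((k ^ 4) ^ 7) = k ^ 4 * 1 := by rw [← pow_succ', mul_one]; exact h8
      exact mul_left_cancel₀ (pow_ne_zero 4 hk0) h9
    rw [h2, mul_one] at h1
    exact (mul_inv_eq_iff_eq_mul.1 h1).symm
  · intro h
    have h1 := hact 1 1
    rw [pow_one, pow_one, one_mul] at h1
    have h2 := mem_centralizer_iff.1 h (C.z 1) (z_mem_Zs 1)
    rw [← h2, mul_inv_cancel_right] at h1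
    exact hk4 (z_inj C h1).symm
  · intro h
    have h1 := hPc (C.z k) fun x hx => (mem_centralizer_iff.1 (h hx) _ (z_mem_Zs k)).symm
    rcases h1 with h1 | h1
    · exact hk0 (C.z_eq_one h1)
    · exact hk1 (z_inj C h1)

/-- **`LfRow` for `Ru`** -/
theorem row {G : Type*} [Group G] [Finite G] (h : Spor.IsoRu G) : LfRow G := by
  obtain ⟨C, -⟩ := exists_core h
  exact row_of_core C

end Cfsg.Agent.H2.Ru
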