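import Cfsg.Agent.KFacts.TwF4.Perf

/-!
# Overgroups of a Sylow 2-subgroup of `²F₄(q)` (helper2)

`S : Full σ G`, `U = J 1 8`.

* `both` : `U, X_9, X_0 ≤ H` implies `H = ⊤`;
* `overU` : an overgroup `H` of `U` is `⊤`, or lies in `U T`, or `J 1 9 ≤ H ≤ (J 1 9) T`, or `J 0 8 ≤ H ≤ (J 0 8) T`;
* `J19_perfect`, `J19_normal` : `J 1 9` is perfect, a perfect normal subgroup is `1` or `J 1 9`;
* `subnormal_perfect` : perfect subnormal subgroups of `H`, `D ≤ H` normal.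
-/

set_option autoImplicit false

namespace Cfsg.Agent.H2.TwF

open Cfsg.Agent.SplitTwo Cfsg.Agent.SplitTwo.ZS Cfsg.Agent.TitsThree.RankTwoZ Cfsg.Agent.KFacts.TwF4
open Cfsg.Agent.KFacts.TwF4.Arc Cfsg.Agent.KFacts.TwF4.Inv Cfsg.Agent.KFacts.TwF4.SylU Cfsg.Agent.KFacts.TwF4.Perf
open Cfsg.Agent.KFacts.TwF4.Full
open scoped commutatorElement

universe u

/-! ### abstract part -/

section abs

variable {H : Type*} [Group H]

/-- a perfect subgroup is mapped to `1` by a homomorphism to a solvable group -/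
theorem map_eq_bot_of_perfect {Q : Type*} [Group Q] [Group.IsSolvable Q] (f : H →* Q) {R : Subgroup H}
    (hR : ⁅R, R⁆ = R) : R.map f = ⊥ := by
  have h1 : ⁅R.map f, R.map f⁆ = R.map f := by rw [← Subgroup.map_commutator, hR]
  have h2 : ∀ n, R.map f ≤ derivedSeries Q n := by
    intro n
    induction n with
    | zero => rw [derivedSeries_zero]; exact le_top
    | succ n ih => rw [derivedSeries_succ, ← h1]; exact Subgroup.commutator_mono ih ih
  obtain ⟨n, hn⟩ := Group.IsSolvable.solvable (G := Q)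
  exact eq_bot_iff.2 (hn ▸ h2 n)

/-- perfect subnormal subgroups of `H`: `D` normal perfect, `H / D` solvable, a perfect subgroup of `D` normalised by
`D` is `1` or `D` -/
theorem subnormal_perfect (D : Subgroup H) [D.Normal] [Group.IsSolvable (H ⧸ D)]
    (hPN : ∀ E : Subgroup H, E ≤ D → (∀ d ∈ D, ∀ e ∈ E, d * e * d⁻¹ ∈ E) → ⁅E, E⁆ = E → E = ⊥ ∨ E = D)
    {L : Subgroup H} (hL : L.IsSubnormal) (hLp : ⁅L, L⁆ = L) (hL1 : L ≠ ⊥) : L = D := by
  have hleD : ∀ R : Subgroup H, ⁅R, R⁆ = R → R ≤ D := by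
    intro R hR
    have h := map_eq_bot_of_perfect (QuotientGroup.mk' D) hR
    rwa [Subgroup.map_eq_bot_iff, QuotientGroup.ker_mk'] at h
  have key : ∀ K : Subgroup H, K.IsSubnormal → D ≤ K ∨ ∀ R : Subgroup H, R ≤ K → ⁅R, R⁆ = R → R = ⊥ := by
    intro K hK
    induction hK with
    | top => exact Or.inl le_top
    | step K K' hKK hK' hN ih =>
      rcases ih with ih | ih
      · let E : Subgroup H := sSup {R | R ≤ K ∧ ⁅R, R⁆ = R}
        have hEK : E ≤ K := sSup_le fun R hR => hR.1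
        have hEp : ⁅E, E⁆ = E := by
          refine le_antisymm (Subgroup.commutator_le_self _) (sSup_le fun R hR => ?_)
          rw [← hR.2]
          exact Subgroup.commutator_mono (le_sSup hR) (le_sSup hR)
        have hmax : ∀ R : Subgroup H, R ≤ K → ⁅R, R⁆ = R → R ≤ E := fun R h1 h2 => le_sSup ⟨h1, h2⟩
        have hEn : ∀ d ∈ D, ∀ e ∈ E, d * e * d⁻¹ ∈ E := by
          intro d hd e he
          have hdK : d ∈ K' := ih hd
          have h1 : E.map (MulAut.conj d).toMonoidHom ≤ E := by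
            refine hmax _ ?_ ?_
            · rintro _ ⟨x, hx, rfl⟩
              have h2 := hN.conj_mem ⟨x, hKK (hEK hx)⟩ (Subgroup.mem_subgroupOf.2 (hEK hx)) ⟨d, hdK⟩
              exact Subgroup.mem_subgroupOf.1 h2
            · rw [← Subgroup.map_commutator, hEp]
          exact h1 ⟨e, he, rfl⟩
        rcases hPN E (hleD E hEp) hEn hEp with h | h
        · right
          intro R h1 h2
          exact eq_bot_iff.2 (h ▸ hmax R h1 h2)
        · left
          rw [← h]; exact hEK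
      · right
        intro R h1 h2
        exact ih R (h1.trans hKK) h2
  rcases key L hL with h | h
  · exact le_antisymm (hleD L hLp) h
  · exact absurd (h L le_rfl hLp) hL1

end abs

/-! ### overgroups of `U` -/

section coord

variable {F : Type*} [Field F] {σ : F →+* F} {G : Type u} [Group G] (S : Full σ G)

theorem X16 : S.XZ 16 = S.XZ 0 := by
  have := S.zsys8.per 0
  norm_num at this
  exact this

theorem X17 : S.XZ 17 = S.XZ 1 := by
  have := S.zsys8.per 1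
  norm_num at this
  exact this

theorem Xm1 : S.XZ (-1) = S.XZ 15 := by
  have := S.zsys8.per (-1)
  norm_num at this
  exact this.symm

theorem n1_mem_of {H : Subgroup G} (hU : J S.XZ 1 8 ≤ H) (h9 : S.XZ 9 ≤ H) : S.n1 ∈ H :=
  (sup_le ((X_le_J (by norm_num) (by norm_num)).trans hU) h9 : S.LO ≤ H) S.n1_mem_LO

theorem J19_le {H : Subgroup G} (hU : J S.XZ 1 8 ≤ H) (h9 : S.XZ 9 ≤ H) : J S.XZ 1 9 ≤ H := by
  refine J_le fun k h1 h2 => ?_
  rcases eq_or_lt_of_le h2 with h | h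
  · rw [h]; exact h9
  · exact (X_le_J h1 (by omega)).trans hU

theorem J08_le {H : Subgroup G} (hU : J S.XZ 1 8 ≤ H) (h0 : S.XZ 0 ≤ H) : S.PL ≤ H := by
  refine J_le fun k h1 h2 => ?_
  rcases eq_or_lt_of_le h1 with h | h
  · rw [← h]; exact h0
  · exact (X_le_J (by omega) h2).trans hU

theorem n2_mem_of {H : Subgroup G} (hU : J S.XZ 1 8 ≤ H) (h0 : S.XZ 0 ≤ H) : S.n2 ∈ H := J08_le S hU h0 S.n2_mem

/-- images of root groups under a reflection in `H` -/
theorem refl_le {H : Subgroup G} {c : ℤ} {n : G} (hn : Refl S.XZ c n) (hH : n ∈ H) {j k : ℤ} (hj : S.XZ j ≤ H)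
    (hk : k = c - j) : S.XZ k ≤ H := by
  intro y hy
  have h1 : n⁻¹ * y * n ∈ S.XZ j := hn.mem_inv hy (by omega)
  have e : y = n * (n⁻¹ * y * n) * n⁻¹ := by group
  rw [e]
  exact mul_mem (mul_mem hH (hj h1)) (inv_mem hH)

/-- `U, X_9, X_0` generate `G` -/
theorem both {H : Subgroup G} (hU : J S.XZ 1 8 ≤ H) (h9 : S.XZ 9 ≤ H) (h0 : S.XZ 0 ≤ H) : H = ⊤ := by
  have hn1 := n1_mem_of S hU h9
  have hn2 := n2_mem_of S hU h0
  have key : ∀ n : ℕ, ∀ k : ℤ, 0 ≤ k → k ≤ n → S.XZ k ≤ H := by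
    intro n
    induction n with
    | zero =>
      intro k h1 h2
      have : k = 0 := by push_cast at h2; omega
      rw [this]; exact h0
    | succ n ih =>
      intro k h1 h2
      push_cast at h2
      rcases le_or_gt k 8 with h3 | h3
      · rcases eq_or_lt_of_le h1 with h4 | h4
        · rw [← h4]; exact h0
        · exact (X_le_J (by omega) h3).trans hU
      · have h4 : S.XZ (k - 2) ≤ H := ih (k - 2) (by omega) (by omega)
        have h5 : S.XZ (8 - (k - 2)) ≤ H := refl_le S S.n2_refl hn2 h4 rfl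
        exact refl_le S S.n1_refl hn1 h5 (by ring)
  rw [eq_top_iff, ← S.R.gen]
  refine iSup_le fun i => ?_
  have h1 := key i.val (i.val : ℤ) (by omega) le_rfl
  have h2 : S.XZ (i.val : ℤ) = S.R.X i := by
    show S.R.X (((i.val : ℕ) : ℤ) : ZMod (2 * 8)) = S.R.X i
    rw [Int.cast_natCast, ZMod.natCast_zmod_val]
  rwa [h2] at h1

theorem incl_add {H : Subgroup G} {w : G} (hw : w ∈ H) {c : ℤ}
    (h : Maps S.R.X w (fun k => ((2 * c : ℤ) : ZMod (2 * 8)) + k)) {j k : ℤ} (hj : S.XZ j ≤ H) (hk : k = 2 * c + j) :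
    S.XZ k ≤ H := by
  intro y hy
  have h1 : w⁻¹ * y * w ∈ S.XZ j := by
    have h2 := (h (j : ZMod (2 * 8)) (w⁻¹ * y * w)).1
    have e : w * (w⁻¹ * y * w) * w⁻¹ = y := by group
    rw [e] at h2
    refine h2 ?_
    show y ∈ S.R.X (((2 * c : ℤ) : ZMod (2 * 8)) + (j : ZMod (2 * 8)))
    rw [← Int.cast_add, ← hk]
    exact hy
  have e : y = w * (w⁻¹ * y * w) * w⁻¹ := by group
  rw [e]
  exact mul_mem (mul_mem hw (hj h1)) (inv_mem hw)

theorem incl_sub {H : Subgroup G} {w : G} (hw : w ∈ H) {c : ℤ}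
    (h : Maps S.R.X w (fun k => ((2 * c : ℤ) : ZMod (2 * 8)) - k)) {j k : ℤ} (hj : S.XZ j ≤ H) (hk : k = 2 * c - j) :
    S.XZ k ≤ H := by
  intro y hy
  have h1 : w⁻¹ * y * w ∈ S.XZ j := by
    have h2 := (h (j : ZMod (2 * 8)) (w⁻¹ * y * w)).1
    have e : w * (w⁻¹ * y * w) * w⁻¹ = y := by group
    rw [e] at h2
    refine h2 ?_
    show y ∈ S.R.X (((2 * c : ℤ) : ZMod (2 * 8)) - (j : ZMod (2 * 8)))
    rw [← Int.cast_sub, ← hk]
    exact hy
  have e : y = w * (w⁻¹ * y * w) * w⁻¹ := by group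
  rw [e]
  exact mul_mem (mul_mem hw (hj h1)) (inv_mem hw)

/-- the elements of an overgroup of `U` -/
theorem cell {H : Subgroup G} (hU : J S.XZ 1 8 ≤ H) {g : G} (hg : g ∈ H) :
    g ∈ J S.XZ 1 8 ⊔ S.T ∨ (S.XZ 9 ≤ H ∧ g ∈ J S.XZ 1 9 ⊔ S.T) ∨ (S.XZ 0 ≤ H ∧ g ∈ S.PL ⊔ S.T) ∨
      (S.XZ 9 ≤ H ∧ S.XZ 0 ≤ H) := by
  obtain ⟨b, hb, t, ht, w, hw, b', hb', rfl⟩ := S.bruhatE g
  have hX : ∀ {k : ℤ}, 1 ≤ k → k ≤ 8 → S.XZ k ≤ H := fun h1 h2 => (X_le_J h1 h2).trans hU
  have htw : t * w ∈ H := by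
    have e : t * w = b⁻¹ * (b * t * w * b') * b'⁻¹ := by group
    rw [e]
    exact mul_mem (mul_mem (inv_mem (hU hb)) hg) (inv_mem (hU hb'))
  have htm : Maps S.R.X t id := ht
  -- `X_9, X_10 ≤ H` and `X_15, X_16 ≤ H`
  have A : S.XZ 9 ≤ H → S.XZ 10 ≤ H → S.XZ 9 ≤ H ∧ S.XZ 0 ≤ H := fun h1 h2 =>
    ⟨h1, refl_le S S.n1_refl (n1_mem_of S hU h1) h2 (by norm_num)⟩
  have B : S.XZ 16 ≤ H → S.XZ 15 ≤ H → S.XZ 9 ≤ H ∧ S.XZ 0 ≤ H := fun h1 h2 => by
    rw [X16] at h1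
    refine ⟨?_, h1⟩
    rw [← Xm1] at h2
    exact refl_le S S.n2_refl (n2_mem_of S hU h1) h2 (by norm_num)
  obtain ⟨c, hc | hc⟩ := hw
  · obtain ⟨c', h1, h2, h3⟩ := reduce c 0
    rw [h3] at hc
    have hc2 : Maps S.R.X (t * w) (fun k => ((2 * c' : ℤ) : ZMod (2 * 8)) + k) :=
      (htm.mul hc).congr fun k => rfl
    rcases lt_or_ge c' 1 with h4 | h4
    · left
      have h5 : c' = 0 := by omega
      have hwT : w ∈ S.T := by
        show Maps S.R.X w id
        exact hc.congr fun k => by rw [h5, mul_zero, Int.cast_zero, zero_add]; rfl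
      have e : b * t * w * b' = b * ((t * w) * b' * (t * w)⁻¹) * (t * w) := by group
      rw [e]
      exact mul_mem (Subgroup.mem_sup_left (mul_mem hb (S.T_conj_J (mul_mem ht hwT) hb')))
        (Subgroup.mem_sup_right (mul_mem ht hwT))
    · right; right; right
      rcases lt_or_ge c' 5 with h5 | h5
      · exact A (incl_add S htw hc2 (j := 9 - 2 * c') (hX (by omega) (by omega)) (by ring))
          (incl_add S htw hc2 (j := 10 - 2 * c') (hX (by omega) (by omega)) (by ring))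
      · exact B (incl_add S htw hc2 (j := 16 - 2 * c') (hX (by omega) (by omega)) (by ring))
          (incl_add S htw hc2 (j := 15 - 2 * c') (hX (by omega) (by omega)) (by ring))
  · obtain ⟨c', h1, h2, h3⟩ := reduce c 4
    rw [h3] at hc
    have hc2 : Maps S.R.X (t * w) (fun k => ((2 * c' : ℤ) : ZMod (2 * 8)) - k) :=
      (htm.mul hc).congr fun k => rfl
    rcases lt_or_ge c' 5 with h4 | h4
    · -- `w = n2`
      right; right; left
      have h5 : c' = 4 := by omega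
      refine ⟨incl_sub S htw hc2 (j := 8) (hX (by norm_num) le_rfl) (by rw [h5]; norm_num), ?_⟩
      have hwT : w * S.n2 ∈ S.T := by
        show Maps S.R.X (w * S.n2) id
        exact (hc.mul S.n2_maps).congr fun k => by
          show ((2 * c' : ℤ) : ZMod (2 * 8)) - (8 - k) = k
          rw [h5]
          exact sub_sub_cancel 8 k
      have hPLT : ∀ {x}, x ∈ S.PL → x ∈ S.PL ⊔ S.T := fun h => Subgroup.mem_sup_left h
      have e : b * t * w * b' = b * (t * (w * S.n2)) * (S.n2⁻¹ * b') := by group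
      rw [e]
      refine mul_mem (mul_mem (hPLT (J_mono (by norm_num) le_rfl hb)) (Subgroup.mem_sup_right (mul_mem ht hwT)))
        (hPLT (mul_mem (inv_mem S.n2_mem) (J_mono (by norm_num) le_rfl hb')))
    · rcases lt_or_ge c' 6 with h5 | h5
      · right; left
        have h6 : c' = 5 := by omega
        refine ⟨incl_sub S htw hc2 (j := 1) (hX le_rfl (by norm_num)) (by rw [h6]; norm_num), ?_⟩
        have hwT : w * S.n1 ∈ S.T := by
          show Maps S.R.X (w * S.n1) id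
          exact (hc.mul S.n1_maps).congr fun k => by
            show ((2 * c' : ℤ) : ZMod (2 * 8)) - (10 - k) = k
            rw [h6]
            exact sub_sub_cancel 10 k
        have hPLT : ∀ {x}, x ∈ J S.XZ 1 9 → x ∈ J S.XZ 1 9 ⊔ S.T := fun h => Subgroup.mem_sup_left h
        have e : b * t * w * b' = b * (t * (w * S.n1)) * (S.n1⁻¹ * b') := by group
        rw [e]
        refine mul_mem (mul_mem (hPLT (J_mono le_rfl (by norm_num) hb)) (Subgroup.mem_sup_right (mul_mem ht hwT)))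
          (hPLT (mul_mem (inv_mem (S.LO_le_J S.n1_mem_LO)) (J_mono le_rfl (by norm_num) hb')))
      · right; right; right
        rcases lt_or_ge c' 9 with h6 | h6
        · exact A (incl_sub S htw hc2 (j := 2 * c' - 9) (hX (by omega) (by omega)) (by ring))
            (incl_sub S htw hc2 (j := 2 * c' - 10) (hX (by omega) (by omega)) (by ring))
        · exact B (incl_sub S htw hc2 (j := 2 * c' - 16) (hX (by omega) (by omega)) (by ring))
            (incl_sub S htw hc2 (j := 2 * c' - 15) (hX (by omega) (by omega)) (by ring))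

/-- **overgroups of `U`** -/
theorem overU {H : Subgroup G} (hU : J S.XZ 1 8 ≤ H) :
    H = ⊤ ∨ H ≤ J S.XZ 1 8 ⊔ S.T ∨ (J S.XZ 1 9 ≤ H ∧ H ≤ J S.XZ 1 9 ⊔ S.T) ∨ (S.PL ≤ H ∧ H ≤ S.PL ⊔ S.T) := by
  have m1 : J S.XZ 1 8 ⊔ S.T ≤ J S.XZ 1 9 ⊔ S.T := sup_le_sup_right (J_mono le_rfl (by norm_num)) _
  have m2 : J S.XZ 1 8 ⊔ S.T ≤ S.PL ⊔ S.T := sup_le_sup_right (J_mono (by norm_num) le_rfl) _
  by_cases h9 : S.XZ 9 ≤ H
  · by_cases h0 : S.XZ 0 ≤ H
    · exact Or.inl (both S hU h9 h0)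
    · right; right; left
      refine ⟨J19_le S hU h9, fun g hg => ?_⟩
      rcases cell S hU hg with h | ⟨-, h⟩ | ⟨h, -⟩ | ⟨-, h⟩
      · exact m1 h
      · exact h
      · exact absurd h h0
      · exact absurd h h0
  · by_cases h0 : S.XZ 0 ≤ H
    · right; right; right
      refine ⟨J08_le S hU h0, fun g hg => ?_⟩
      rcases cell S hU hg with h | ⟨h, -⟩ | ⟨-, h⟩ | ⟨h, -⟩
      · exact m2 h
      · exact absurd h h9
      · exact h
      · exact absurd h h9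
    · right; left
      intro g hg
      rcases cell S hU hg with h | ⟨h, -⟩ | ⟨h, -⟩ | ⟨h, -⟩
      · exact h
      · exact absurd h h9
      · exact absurd h h0
      · exact absurd h h9

/-! ### `J 1 9` -/

variable [Finite F] [Finite G]

/-- **`J 1 9` is perfect** -/
theorem J19_perfect (hF : ∃ c : Fˣ, c ≠ 1) : ⁅J S.XZ 1 9, J S.XZ 1 9⁆ = J S.XZ 1 9 := by
  apply le_antisymm (Subgroup.commutator_le_self _)
  have hHO : S.HO ≤ ⁅J S.XZ 1 9, J S.XZ 1 9⁆ := by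
    rw [← HO_perfect S hF]
    exact Subgroup.commutator_mono (HO_le_J S) (HO_le_J S)
  obtain ⟨c, hc⟩ := hF
  have hh : S.h c c ∈ J S.XZ 1 9 := HO_le_J S (h_mem_HO S c)
  have k2 : S.XZ 2 ≤ ⁅J S.XZ 1 9, J S.XZ 1 9⁆ :=
    le_comm_of_fix hh (X_le_J (by norm_num) (by norm_num)) (h_X S _ _ 2)
      (fixe S (a := 1) (by rw [chE_one]; exact hc) fun x hx => (mem_X2 S).1 hx)
  have k8 : S.XZ 8 ≤ ⁅J S.XZ 1 9, J S.XZ 1 9⁆ :=
    le_comm_of_fix hh (X_le_J (by norm_num) (by norm_num)) (h_X S _ _ 8)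
      (fixe S (a := 4) (by rw [chE_four]; exact inv_ne_one.2 hc) fun x hx => (mem_X8 S).1 hx)
  refine J_le fun k h1 h2 => ?_
  have hk : k = 1 ∨ k = 2 ∨ k = 8 ∨ k = 9 ∨ (3 ≤ k ∧ k ≤ 7) := by omega
  rcases hk with rfl | rfl | rfl | rfl | ⟨h3, h4⟩
  · exact (X1_HO S).trans hHO
  · exact k2
  · exact k8
  · exact (X9_HO S).trans hHO
  · exact ((X_le_J h3 h4).trans (J37_HO S)).trans hHO

/-- **a perfect normal subgroup of `J 1 9` is `1` or `J 1 9`** -/
theorem J19_normal (hF : ∃ c : Fˣ, c ≠ 1) (hR : S.R.p = 2) {E : Subgroup G} (hE : E ≤ J S.XZ 1 9)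
    (hEn : ∀ h ∈ J S.XZ 1 9, ∀ e ∈ E, h * e * h⁻¹ ∈ E) (hEp : ⁅E, E⁆ = E) : E = ⊥ ∨ E = J S.XZ 1 9 := by
  refine perfect_normal (B := J S.XZ 1 9 ⊓ (J S.XZ 1 8 ⊔ S.T)) (n := S.n1) (J19_perfect S hF)
    (isSolvable_le inf_le_right (BT_solvable S hR)) inf_le_left ?_ hE hEn hEp
  intro g hg
  obtain ⟨l, hl, q, hq, rfl⟩ := S.J19_split hg
  have hq8 : q ∈ J S.XZ 1 8 := J_mono (by norm_num) le_rfl hq
  obtain ⟨b, hb, t, ht, h | ⟨b', hb', h⟩⟩ := HO_form S (Subgroup.mem_sup_left hl : l ∈ S.HO)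
  · left
    refine ⟨hg, ?_⟩
    rw [h]
    exact mul_mem (mul_mem (Subgroup.mem_sup_left hb) (Subgroup.mem_sup_right ht)) (Subgroup.mem_sup_left hq8)
  · right
    have hn : S.n1 ∈ J S.XZ 1 9 := S.LO_le_J S.n1_mem_LO
    have hb'9 : b' * q ∈ J S.XZ 1 9 := J_mono le_rfl (by norm_num) (mul_mem hb' hq8)
    have e : b * t = (l * q) * (b' * q)⁻¹ * S.n1⁻¹ := by rw [h]; group
    have m1 : b * t ∈ J S.XZ 1 9 := by rw [e]; exact mul_mem (mul_mem hg (inv_mem hb'9)) (inv_mem hn)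
    refine ⟨b * t, ⟨m1, mem_BT S b hb t ht rfl⟩, b' * q, ⟨hb'9, Subgroup.mem_sup_left (mul_mem hb' hq8)⟩, ?_⟩
    rw [h]; group

omit [Finite F] [Finite G] in
/-- the quotient of an overgroup by `D` is solvable -/
theorem quot_solvable {D H : Subgroup G} (hDH : D ≤ H) (hDn : (D.subgroupOf H).Normal) (hH : H ≤ D ⊔ S.T)
    (hT : ∀ t ∈ S.T, ∀ x ∈ D, t * x * t⁻¹ ∈ D) : Group.IsSolvable (↥H ⧸ D.subgroupOf H) := by
  have hsplit : ∀ x ∈ H, ∃ t ∈ S.T, ∃ d ∈ D, x = t * d := by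
    intro x hx
    have h1 := hH hx
    rw [sup_comm] at h1
    exact mem_sup_of_norm hT h1
  refine Group.isSolvable_of_comm fun a b => ?_
  obtain ⟨⟨x, hx⟩, rfl⟩ := QuotientGroup.mk'_surjective (D.subgroupOf H) a
  obtain ⟨⟨y, hy⟩, rfl⟩ := QuotientGroup.mk'_surjective (D.subgroupOf H) b
  obtain ⟨s, hs, d, hd, rfl⟩ := hsplit x hx
  obtain ⟨t, ht, e, he, rfl⟩ := hsplit y hy
  have hsH : s ∈ H := by
    have : s = (s * d) * d⁻¹ := by group
    rw [this]; exact mul_mem hx (inv_mem (hDH hd))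
  have htH : t ∈ H := by
    have : t = (t * e) * e⁻¹ := by group
    rw [this]; exact mul_mem hy (inv_mem (hDH he))
  have ex : (QuotientGroup.mk' (D.subgroupOf H)) ⟨s * d, hx⟩ = QuotientGroup.mk' (D.subgroupOf H) ⟨s, hsH⟩ := by
    rw [eq_comm, QuotientGroup.mk'_eq_mk']
    exact ⟨⟨d, hDH hd⟩, Subgroup.mem_subgroupOf.2 hd, rfl⟩
  have ey : (QuotientGroup.mk' (D.subgroupOf H)) ⟨t * e, hy⟩ = QuotientGroup.mk' (D.subgroupOf H) ⟨t, htH⟩ := by
    rw [eq_comm, QuotientGroup.mk'_eq_mk']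
    exact ⟨⟨e, hDH he⟩, Subgroup.mem_subgroupOf.2 he, rfl⟩
  rw [ex, ey, ← map_mul, ← map_mul]
  exact congrArg _ (Subtype.ext (T_comm S hs ht))

end coord

end Cfsg.Agent.H2.TwF
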