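import Cfsg.Agent.H2.TwFRow
import Cfsg.Agent.H2.CommInv
import Cfsg.Agent.H1.QsNode
import Cfsg.Agent.KFacts.TwF4.Full

/-!
# `²F₄(q)`, `q ≥ 8` (helper2)

* `row : LfRow G`, `rowT : RowT G`, `rowL : RowL Q G` with `CommInv (Q i)`.
-/

set_option autoImplicit false

namespace Cfsg.Agent.H2.TwF

open Cfsg Cfsg.Lie Cfsg.Agent.SplitTwo Cfsg.Agent.SplitTwo.ZS Cfsg.Agent.TitsThree.RankTwoZ Cfsg.Agent.KFacts.TwF4
open Cfsg.Agent.KFacts.TwF4.Arc Cfsg.Agent.KFacts.TwF4.Inv Cfsg.Agent.KFacts.TwF4.SylU Cfsg.Agent.KFacts.TwF4.Perf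
open Cfsg.Agent.KFacts.TwF4.Full Cfsg.Agent.Lib.Cores
open scoped commutatorElement

universe u v

/-! ### abstract part -/

/-- the involutions of a quotient -/
theorem commInv_quot {D : Type*} [Group D] [Finite D] (V : Subgroup D) [V.Normal] (P : Sylow 2 D) (A : Subgroup D)
    (hPA : ∀ u ∈ P, ∃ a ∈ A, a⁻¹ * u ∈ V)
    (hA : ∀ a ∈ A, ∀ b ∈ A, a * a ∈ V → b * b ∈ V → a * b = b * a) : CommInv (D ⧸ V) := by
  have hf : Fact (Nat.Prime 2) := ⟨Nat.prime_two⟩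
  refine CommInv.of_sylow (P.mapSurjective (QuotientGroup.mk'_surjective V)) ?_
  have key : ∀ x ∈ P.mapSurjective (QuotientGroup.mk'_surjective V), ∃ a ∈ A, QuotientGroup.mk' V a = x := by
    intro x hx
    have hx' : x ∈ ((P : Subgroup D).map (QuotientGroup.mk' V)) := hx
    obtain ⟨u, hu, rfl⟩ := hx'
    obtain ⟨a, ha, hv⟩ := hPA u hu
    refine ⟨a, ha, ?_⟩
    rw [QuotientGroup.mk'_eq_mk']
    exact ⟨_, hv, by group⟩
  intro x hx y hy hxx hyy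
  obtain ⟨a, ha, rfl⟩ := key x hx
  obtain ⟨b, hb, rfl⟩ := key y hy
  rw [← map_mul] at hxx hyy ⊢
  rw [← map_mul]
  have h1 : a * a ∈ V := by rwa [QuotientGroup.mk'_apply, QuotientGroup.eq_one_iff] at hxx
  have h2 : b * b ∈ V := by rwa [QuotientGroup.mk'_apply, QuotientGroup.eq_one_iff] at hyy
  rw [hA a ha b hb h1 h2]

section coord

variable {F : Type*} [Field F] {σ : F →+* F} {G : Type u} [Group G] (S : Full σ G)
variable [Finite F] [Finite G]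

include S in
theorem pCore_eq_bot [IsSimpleGroup G] (hF : ∃ c : Fˣ, c ≠ 1) : pCore 2 G = ⊥ := by
  have hn : (pCore 2 G).Normal := Lib.Cores.pCore_normal 2
  rcases hn.eq_bot_or_eq_top with h | h
  · exact h
  · exfalso
    obtain ⟨c, hc⟩ := hF
    exact hc (torus_mem_two S (pCore_isPGroup (G := G) 2) (by rw [h]; exact Subgroup.mem_top (S.h c c))).1

/-- a Sylow subgroup of `D ≥ U` -/
theorem exists_sylow_sub (hF : ∃ c : Fˣ, c ≠ 1) (hR : S.R.p = 2) {D : Subgroup G} (hD : J S.XZ 1 8 ≤ D) :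
    ∃ P : Sylow 2 ↥D, ∀ x : ↥D, x ∈ P ↔ (x : G) ∈ J S.XZ 1 8 := by
  obtain ⟨P, hP⟩ := exists_sylow S hF hR
  refine ⟨P.subtype (by rw [hP]; exact hD), fun x => ?_⟩
  show (x : G) ∈ (P : Subgroup G) ↔ _
  rw [hP]

theorem commInv_J19 (hF : ∃ c : Fˣ, c ≠ 1) (hR : S.R.p = 2) :
    CommInv (↥(J S.XZ 1 9) ⧸ pCore 2 ↥(J S.XZ 1 9)) := by
  have Z8 := S.zsys8
  obtain ⟨P, hP⟩ := exists_sylow_sub S hF hR (D := J S.XZ 1 9) (J_mono le_rfl (by norm_num))
  have hV : (J S.XZ 2 8).subgroupOf (J S.XZ 1 9) ≤ pCore 2 ↥(J S.XZ 1 9) := by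
    refine le_pCore ?_ ((two_J S hR (a := 2) (b := 8) (by norm_num)).comap_of_injective _ (Subgroup.subtype_injective _))
    refine (Subgroup.normal_subgroupOf_iff_le_normalizer (J_mono (by norm_num) (by norm_num))).2 ?_
    have := Z8.le_normalizer (a := 2) (b := 8) (by norm_num)
    norm_num at this
    exact this
  refine commInv_quot _ P ((S.XZ 1).subgroupOf (J S.XZ 1 9)) (fun u hu => ?_) ?_
  · obtain ⟨x, hx, y, hy, e⟩ := Z8.split_ll (a := 1) (b := 8) (by norm_num) (by norm_num) ((hP u).1 hu)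
    refine ⟨⟨x, mem_J hx le_rfl (by norm_num)⟩, Subgroup.mem_subgroupOf.2 hx, hV (Subgroup.mem_subgroupOf.2 ?_)⟩
    show x⁻¹ * (u : G) ∈ J S.XZ 2 8
    rw [e, inv_mul_cancel_left]
    exact hy
  · rintro ⟨a, ha'⟩ ha ⟨b, hb'⟩ hb - -
    obtain ⟨s, rfl⟩ := (mem_X1 S).1 (Subgroup.mem_subgroupOf.1 ha)
    obtain ⟨t, rfl⟩ := (mem_X1 S).1 (Subgroup.mem_subgroupOf.1 hb)
    apply Subtype.ext
    show S.o 0 s * S.o 0 t = S.o 0 t * S.o 0 s
    rw [S.o_add, S.o_add, add_comm]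

theorem commInv_PL (hF : ∃ c : Fˣ, c ≠ 1) (hR : S.R.p = 2) : CommInv (↥S.PL ⧸ pCore 2 ↥S.PL) := by
  have Z8 := S.zsys8
  obtain ⟨P, hP⟩ := exists_sylow_sub S hF hR (D := S.PL) (J_mono (by norm_num) le_rfl)
  have hV : (J S.XZ 1 7).subgroupOf S.PL ≤ pCore 2 ↥S.PL := by
    refine le_pCore ?_ ((two_J S hR (a := 1) (b := 7) (by norm_num)).comap_of_injective _ (Subgroup.subtype_injective _))
    refine (Subgroup.normal_subgroupOf_iff_le_normalizer (J_mono (by norm_num) (by norm_num))).2 ?_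
    have := Z8.le_normalizer (a := 1) (b := 7) (by norm_num)
    norm_num at this
    exact this
  have hV2 : ∀ x : ↥S.PL, x ∈ pCore 2 ↥S.PL → (x : G) ∈ J S.XZ 1 7 := by
    intro x hx
    refine O2_PL S hF hR (N := (pCore 2 ↥S.PL).map S.PL.subtype) (Subgroup.map_subtype_le _)
      ((pCore_isPGroup 2).map _) ?_ ⟨x, hx, rfl⟩
    rintro g hg _ ⟨y, hy, rfl⟩
    exact ⟨⟨g, hg⟩ * y * ⟨g, hg⟩⁻¹, (Lib.Cores.pCore_normal 2).conj_mem y hy ⟨g, hg⟩, rfl⟩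
  refine commInv_quot _ P ((S.XZ 8).subgroupOf S.PL) (fun u hu => ?_) ?_
  · obtain ⟨x, hx, y, hy, e⟩ := Z8.split_rl (a := 1) (b := 8) (by norm_num) (by norm_num) ((hP u).1 hu)
    refine ⟨⟨x, mem_J hx (by norm_num) le_rfl⟩, Subgroup.mem_subgroupOf.2 hx, hV (Subgroup.mem_subgroupOf.2 ?_)⟩
    show x⁻¹ * (u : G) ∈ J S.XZ 1 7
    rw [e, inv_mul_cancel_left]
    exact hy
  · have key : ∀ a : ↥S.PL, a ∈ (S.XZ 8).subgroupOf S.PL → a * a ∈ pCore 2 ↥S.PL → ∃ u, S.e 4 0 u = (a : G) := by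
      intro a ha haa
      obtain ⟨p, u, h⟩ := (mem_X8 S).1 (Subgroup.mem_subgroupOf.1 ha)
      have h1 := hV2 _ haa
      have h2 : (a : G) * a ∈ J S.XZ 1 7 := h1
      rw [← h, e_sq S] at h2
      have h3 : S.e 4 0 (p * σ p) = 1 :=
        Z8.inter_one 1 (mem_J (S.mX8 0 (p * σ p)) (by norm_num : (8 : ℤ) ≤ 8) le_rfl) h2 (by norm_num) (by norm_num)
          (by norm_num) (by norm_num) (Or.inr (by norm_num))
      have h4 := (S.e_eq_one h3).2
      have h5 : p = 0 := by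
        rcases mul_eq_zero.1 h4 with h5 | h5
        · exact h5
        · exact (map_eq_zero σ).1 h5
      exact ⟨u, by rw [← h, h5]⟩
    intro a ha b hb haa hbb
    obtain ⟨s, hs⟩ := key a ha haa
    obtain ⟨t, ht⟩ := key b hb hbb
    apply Subtype.ext
    show (a : G) * b = b * a
    rw [← hs, ← ht, S.e_mul, S.e_mul]
    simp only [map_zero, mul_zero, add_zero, add_comm]

/-- the two parabolic subgroups -/
def Dd (i : Fin 2) : Subgroup G := if i = 0 then J S.XZ 1 9 else S.PL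

theorem rowT_model [IsSimpleGroup G] (hF : ∃ c : Fˣ, c ≠ 1) (hR : S.R.p = 2) : H1.QsNode.RowT G := by
  obtain ⟨P, hP⟩ := exists_sylow S hF hR
  refine H1.QsNode.RowT.of_one P fun L hL => ?_
  rw [hP] at hL ⊢
  rcases mem_calL S hF hR (pCore_eq_bot S hF) hL with rfl | rfl
  · exact J_mono le_rfl (by norm_num)
  · exact J_mono (by norm_num) le_rfl

theorem rowL_model [IsSimpleGroup G] (hF : ∃ c : Fˣ, c ≠ 1) (hR : S.R.p = 2) :
    H1.RgdRow.RowL (fun i : Fin 2 => ↥(Dd S i) ⧸ pCore 2 ↥(Dd S i)) G := by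
  obtain ⟨P, hP⟩ := exists_sylow S hF hR
  refine H1.RgdRow.RowL.of_one P fun L hL => ?_
  rw [hP] at hL ⊢
  rcases mem_calL S hF hR (pCore_eq_bot S hF) hL with rfl | rfl
  · exact ⟨(J_mono le_rfl (by norm_num)).trans Subgroup.le_normalizer, 0, ⟨MulEquiv.refl _⟩⟩
  · exact ⟨(J_mono (by norm_num) le_rfl : J S.XZ 1 8 ≤ J S.XZ 0 8).trans Subgroup.le_normalizer, 1, ⟨MulEquiv.refl _⟩⟩

theorem commInv_Dd (hF : ∃ c : Fˣ, c ≠ 1) (hR : S.R.p = 2) (i : Fin 2) :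
    CommInv (↥(Dd S i) ⧸ pCore 2 ↥(Dd S i)) := by
  fin_cases i
  · exact commInv_J19 S hF hR
  · exact commInv_PL S hF hR

theorem row_model (hF : ∃ c : Fˣ, c ≠ 1) (hR : S.R.p = 2) : LfRow G := by
  obtain ⟨P, hP⟩ := exists_sylow S hF hR
  refine LfRow.of_one P ?_
  rw [hP]
  exact lfAt S hF hR

end coord

/-- the parameters of `²F₄(q)`, `q ≥ 8` -/
theorem exists_full {K : Type v} [Group K] (h : Iso2F4 K) :
    ∃ (F : Type) (_ : Field F) (_ : Finite F) (σ : F →+* F) (G : Type) (_ : Group G) (_ : Finite G)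
      (S : Full σ G), (∃ c : Fˣ, c ≠ 1) ∧ S.R.p = 2 ∧ Nonempty (G ≃* K) := by
  obtain ⟨F, _, _, m, hm, hK, ⟨e⟩⟩ := h
  obtain ⟨φ, hφ⟩ := Cfsg.Agent.ChevalleyStructure.TwF4.TwistedFix.exists_rln hK
  have := Cfsg.Agent.ChevalleyStructure.TwF4.Twisted.charP_two hK
  have hfin : Finite ↥(twistedF4 F (2 ^ m)) := inferInstance
  have hF : ∃ c : Fˣ, c ≠ 1 := by
    have h1 : 1 < Nat.card Fˣ := by
      rw [Nat.card_units, Nat.card_eq_fintype_card, hK]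
      have : 2 ^ 3 ≤ 2 ^ (2 * m + 1) := Nat.pow_le_pow_right (by norm_num) (by omega)
      omega
    have h2 : Nontrivial Fˣ := Finite.one_lt_card_iff_nontrivial.1 h1
    exact exists_ne 1
  exact ⟨F, inferInstance, inferInstance, φ, ↥(twistedF4 F (2 ^ m)), inferInstance, hfin,
    Cfsg.Agent.KFacts.TwF4.Inst.full hK hφ, hF, rfl, ⟨e.symm⟩⟩

variable {G : Type u} [Group G]

/-- **`LfRow` for `²F₄(q)`** -/
theorem row (h : Iso2F4 G) : LfRow G := by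
  obtain ⟨F, _, _, σ, X, _, _, S, hF, hR, ⟨e⟩⟩ := exists_full h
  exact (row_model S hF hR).congr e

/-- **`RowT` for `²F₄(q)`** -/
theorem rowT [Finite G] [IsSimpleGroup G] (h : Iso2F4 G) : H1.QsNode.RowT G := by
  obtain ⟨F, _, _, σ, X, _, _, S, hF, hR, ⟨e⟩⟩ := exists_full h
  have hnt : Nontrivial X := e.toEquiv.nontrivial
  have : IsSimpleGroup X := IsSimpleGroup.isSimpleGroup_of_surjective e.symm.toMonoidHom e.symm.surjective
  exact (rowT_model S hF hR).congr e.symm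

/-- **`RowL` for `²F₄(q)`** -/
theorem rowL [Finite G] [IsSimpleGroup G] (h : Iso2F4 G) :
    ∃ (Q : Fin 2 → Type) (_ : ∀ i, Group (Q i)), H1.RgdRow.RowL Q G ∧ ∀ i, CommInv (Q i) := by
  obtain ⟨F, _, _, σ, X, _, _, S, hF, hR, ⟨e⟩⟩ := exists_full h
  have hnt : Nontrivial X := e.toEquiv.nontrivial
  have : IsSimpleGroup X := IsSimpleGroup.isSimpleGroup_of_surjective e.symm.toMonoidHom e.symm.surjective
  exact ⟨fun i => ↥(Dd S i) ⧸ pCore 2 ↥(Dd S i), fun i => inferInstance, (rowL_model S hF hR).congr e.symm,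
    commInv_Dd S hF hR⟩

/-- for `L ∈ ℒ(G, T)`, two involutions in a common 2-subgroup of `L / O₂(L)` commute -/
theorem commInv [Finite G] [IsSimpleGroup G] (h : Iso2F4 G) {T : Sylow 2 G} {L : Subgroup G}
    (hL : L ∈ calL (T : Subgroup G)) : CommInv (↥L ⧸ pCore 2 ↥L) := by
  obtain ⟨Q, _, h1, h2⟩ := rowL h
  obtain ⟨-, i, ⟨f⟩⟩ := h1 T L hL
  exact (h2 i).congr f

end Cfsg.Agent.H2.TwF
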