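import Cfsg.Agent.H2.TwF
import Cfsg.Agent.H2.LfRow
import Cfsg.Agent.H1.Tight

/-!
# `ℒ(G, U)` for `²F₄(q)` (helper2)

* `mem_calL` : the members of `ℒ(G, U)` are `J 1 9` and `J 0 8`;
* `lfAt` : `LfAt U`.
-/

set_option autoImplicit false

namespace Cfsg.Agent.H2.TwF

open Cfsg Cfsg.Agent.SplitTwo Cfsg.Agent.SplitTwo.ZS Cfsg.Agent.TitsThree.RankTwoZ Cfsg.Agent.KFacts.TwF4
open Cfsg.Agent.KFacts.TwF4.Arc Cfsg.Agent.KFacts.TwF4.Inv Cfsg.Agent.KFacts.TwF4.SylU Cfsg.Agent.KFacts.TwF4.Perf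
open Cfsg.Agent.KFacts.TwF4.Full
open scoped commutatorElement

universe u

variable {F : Type*} [Field F] {σ : F →+* F} {G : Type u} [Group G] (S : Full σ G)

theorem le_normalizer_of {D H : Subgroup G} (hH : H ≤ D ⊔ S.T) (hT : ∀ t ∈ S.T, ∀ x ∈ D, t * x * t⁻¹ ∈ D) :
    H ≤ Subgroup.normalizer (D : Set G) := by
  refine hH.trans (sup_le Subgroup.le_normalizer fun t ht => ?_)
  rw [Subgroup.mem_normalizer_iff]
  intro x
  refine ⟨fun hx => hT t ht x hx, fun hx => ?_⟩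
  have := hT t⁻¹ (inv_mem ht) _ hx
  have e : t⁻¹ * (t * x * t⁻¹) * t⁻¹⁻¹ = x := by group
  rwa [e] at this

theorem eq_of_sub {D H : Subgroup G} (hDH : D ≤ H) (hH : H ≤ D ⊔ S.T) (hT : ∀ t ∈ S.T, ∀ x ∈ D, t * x * t⁻¹ ∈ D)
    (hPN : ∀ E : Subgroup G, E ≤ D → (∀ d ∈ D, ∀ e ∈ E, d * e * d⁻¹ ∈ E) → ⁅E, E⁆ = E → E = ⊥ ∨ E = D)
    {L : Subgroup ↥H} (hL : L.IsSubnormal) (hLp : ⁅L, L⁆ = L) (hL1 : L ≠ ⊥) : L = D.subgroupOf H := by
  have hn : (D.subgroupOf H).Normal :=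
    (Subgroup.normal_subgroupOf_iff_le_normalizer hDH).2 (le_normalizer_of S hH hT)
  have hs := quot_solvable S hDH hn hH hT
  refine subnormal_perfect (D.subgroupOf H) (fun E hE hEn hEp => ?_) hL hLp hL1
  have hED : E.map H.subtype ≤ D := by
    rintro _ ⟨x, hx, rfl⟩
    exact Subgroup.mem_subgroupOf.1 (hE hx)
  rcases hPN (E.map H.subtype) hED (by
    rintro d hd _ ⟨x, hx, rfl⟩
    exact ⟨⟨d, hDH hd⟩ * x * ⟨d, hDH hd⟩⁻¹, hEn _ (Subgroup.mem_subgroupOf.2 hd) x hx, rfl⟩)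
    (by rw [← Subgroup.map_commutator, hEp]) with h | h
  · exact Or.inl ((Subgroup.map_eq_bot_iff_of_injective _ H.subtype_injective).1 h)
  · right
    rw [← h, Subgroup.subgroupOf, Subgroup.comap_map_eq_self_of_injective H.subtype_injective]

variable [Finite F] [Finite G]

/-- **the members of `ℒ(G, U)`** -/
theorem mem_calL (hF : ∃ c : Fˣ, c ≠ 1) (hR : S.R.p = 2) (hO : pCore 2 G = ⊥) {L : Subgroup G}
    (hL : L ∈ calL (J S.XZ 1 8)) : L = J S.XZ 1 9 ∨ L = S.PL := by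
  have hT : ∀ a b : ℤ, ∀ t ∈ S.T, ∀ x ∈ J S.XZ a b, t * x * t⁻¹ ∈ J S.XZ a b := fun a b t ht x hx => S.T_conj_J ht hx
  have key : ∀ {D : Subgroup G}, L.subgroupOf (L ⊔ J S.XZ 1 8) = D.subgroupOf (L ⊔ J S.XZ 1 8) →
      D ≤ L ⊔ J S.XZ 1 8 → L = D := by
    intro D h1 h2
    have h3 := congrArg (Subgroup.map (L ⊔ J S.XZ 1 8).subtype) h1
    rw [Subgroup.subgroupOf_map_subtype, Subgroup.subgroupOf_map_subtype, inf_eq_left.2 h2,
      inf_eq_left.2 (le_sup_left : L ≤ L ⊔ J S.XZ 1 8)] at h3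
    exact h3
  have hC := hL.1
  obtain ⟨h1, h2, h3, -⟩ := hC
  rcases overU S (H := L ⊔ J S.XZ 1 8) le_sup_right with h | h | ⟨ha, hb⟩ | ⟨ha, hb⟩
  · exfalso
    apply hL.2.2
    have h4 : (pCore 2 ↥(L ⊔ J S.XZ 1 8)).map (L ⊔ J S.XZ 1 8).subtype = ⊥ := by
      rw [eq_bot_iff, ← hO]
      refine Lib.Cores.le_pCore ?_ ((Lib.Cores.pCore_isPGroup 2).map _)
      have h5 : (pCore 2 ↥(L ⊔ J S.XZ 1 8)).Normal := Lib.Cores.pCore_normal 2
      refine h5.map _ ?_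
      intro g
      exact ⟨⟨g, by rw [h]; exact Subgroup.mem_top g⟩, rfl⟩
    exact (Subgroup.map_eq_bot_iff_of_injective _ (L ⊔ J S.XZ 1 8).subtype_injective).1 h4
  · exact absurd (isSolvable_le h (BT_solvable S hR)) fun hs => H1.Tight.not_solvable_of_calL hL hs
  · exact Or.inl (key (eq_of_sub S ha hb (hT 1 9) (fun E h1 h2 h3 => J19_normal S hF hR h1 h2 h3) h3 h2 h1) ha)
  · exact Or.inr (key (eq_of_sub S ha hb (hT 0 8) (fun E h1 h2 h3 => PL_normal S hF hR h1 h2 h3) h3 h2 h1) ha)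

/-- `LfAt U` -/
theorem lfAt (hF : ∃ c : Fˣ, c ≠ 1) (hR : S.R.p = 2) : LfAt (J S.XZ 1 8) := by
  have Z8 := S.zsys8
  refine ⟨J S.XZ 1 9, J S.XZ 1 9, J_mono le_rfl (by norm_num), ?_, le_rfl, J19_perfect S hF, ?_⟩
  · intro hb
    have h28 : IsPGroup 2 (J S.XZ 2 8) := two_J S hR (by norm_num)
    have h1 := QTUniq.Local.le_map_pCore (p := 2) (U := J S.XZ 2 8) (X := J S.XZ 1 9)
      (J_mono (by norm_num) (by norm_num)) h28 (by
        have := Z8.le_normalizer (a := 2) (b := 8) (by norm_num)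
        norm_num at this
        exact this)
    rw [hb, Subgroup.map_bot] at h1
    obtain ⟨x, hx, hx1⟩ := Z8.exists_ne 2
    exact hx1 (by simpa using h1 (mem_J hx le_rfl (by norm_num)))
  · intro hc
    have hz : S.e 2 0 1 ∈ H7.Faithful.omZ (J S.XZ 1 8) := by
      refine H7.Faithful.mem_omZ.2 ⟨⟨mem_J (S.mX4 0 1) (by norm_num) (by norm_num), Subgroup.mem_centralizer_iff.2
        fun t ht => ?_⟩, ?_⟩
      · exact S.comm_PL (J_mono (by norm_num) le_rfl ht : t ∈ S.PL) (S.mem_Zc.2 ⟨1, rfl⟩)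
      · rw [pow_two, e_sq S, zero_mul, S.e_zero]
    have hn : S.n1 ∈ J S.XZ 1 9 := S.LO_le_J S.n1_mem_LO
    have h1 := Subgroup.mem_centralizer_iff.1 (hc hn) _ hz
    have h2 : S.n1 * S.e 2 0 1 * S.n1⁻¹ ∈ S.XZ 6 := S.n1_refl.mem' (S.mX4 0 1) (by norm_num)
    rw [← h1, mul_inv_cancel_right] at h2
    exact one_ne_zero (S.e_eq_one (S.X_inf_near (i := 4) (j := 6) (by norm_num) (by norm_num) (S.mX4 0 1) h2)).2

end Cfsg.Agent.H2.TwF
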