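import Cfsg.Agent.Mrg.Omega.ML.UFour.Perm
import Cfsg.Agent.H2.WM

/-!
# `LfRow` for `U₄(3)` (helper2)

The permutation model of degree 280 (helper844). `V` is elementary abelian of order 16 with normalizer `2⁴.A₆`.
-/

set_option autoImplicit false
set_option maxRecDepth 100000

namespace Cfsg.Agent.H2.UFourThree

open Cfsg Subgroup Cfsg.Agent.GH.Pc Cfsg.Agent.H2.WM
open Cfsg.Agent.Omega.ML.UFour.Data (ok eqw eq3)
open Cfsg.Agent.Omega.ML.UFour.Perm (wd wd_nil wd_append eqw_spec eq3_of_eq card_K0 psu_iso)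
open Cfsg.Agent.SporadicStructure.U43Perm (K0)

/-- the letters modulo 10 -/
def rd (w : List ℕ) : List ℕ := w.map (· % 10)

theorem ok_rd (w : List ℕ) : ok (rd w) = true := by
  unfold ok rd
  rw [List.all_eq_true]
  intro x hx
  obtain ⟨y, -, rfl⟩ := List.mem_map.1 hx
  rw [Nat.blt_eq]
  exact Nat.mod_lt _ (by norm_num)

/-- the test for equality -/
def eqU (u v : List ℕ) : Bool := eqw (rd u) (rd v)

/-- the model -/
def M : Ev K0 eqU where
  E w := wd (rd w)
  nil := wd_nil
  app u v := by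
    unfold rd
    rw [List.map_append, wd_append]
  eq_of u v h := eqw_spec h
  ne_of u v h e := by
    have h1 := eq3_of_eq (ok_rd u) (ok_rd v) e
    have h2 : eqU u v = true := by
      unfold eqU eqw
      rw [ok_rd, ok_rd, h1]
      rfl
    rw [h2] at h
    exact absurd h (by decide)

def P : Pres 7 where
  sq i := match i.val with
    | 0 => [2, 3]
    | 1 => [5]
    | 2 => [5]
    | _ => []
  cj i j := match i.val, j.val with
    | 0, 1 => [1, 2, 3, 5]
    | 0, 2 => [2, 4, 6]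
    | 0, 3 => [3, 4, 6]
    | 0, 4 => [4, 5]
    | 0, 5 => [5, 6]
    | 1, 2 => [2, 5]
    | 1, 3 => [3, 5, 6]
    | 1, 4 => [4, 5]
    | 2, 3 => [3, 5]
    | 2, 4 => [4, 6]
    | _, _ => [j]

theorem P_ok : P.Ok := by decide

/-- a polycyclic series of a Sylow 2-subgroup -/
def tw : Fin 7 → List ℕ := ![[1, 8, 9, 6], [1, 7, 9], [6, 9], [9, 5], [4, 7], [1, 4], [1]]

def vw : Fin 4 → List (Fin 7) := ![[3], [4], [5], [6]]

def tT (k : Fin 7) : Fin 4 → List (Fin 4) :=
  match k.val with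
  | 0 => ![[0, 1, 3], [1, 2], [2, 3], [3]]
  | 1 => ![[0, 2, 3], [1, 2], [2], [3]]
  | 2 => ![[0, 2], [1, 3], [2], [3]]
  | _ => ![[0], [1], [2], [3]]

def xw : List ℕ := [2, 2, 2, 3]
def yw : List ℕ := [0, 0, 0, 0, 1, 0, 0, 1, 0, 0, 0, 0, 0, 0, 1, 0, 0]
def tx : Fin 4 → List (Fin 4) := ![[0, 2], [2], [1, 2], [3]]
def ty : Fin 4 → List (Fin 4) := ![[1, 3], [1, 2], [0, 2], [1, 2, 3]]

theorem row_K0 : LfRow K0 :=
  M.row P_ok tw (by decide +kernel) (by decide +kernel) (by decide +kernel)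
    (by rw [card_K0]; decide) vw tT (by decide +kernel) [3]
    (by decide +kernel) (by decide +kernel) xw yw tx ty (by decide +kernel) (by decide +kernel) (a := 3) (b := 5) (c := 4)
    (by decide +kernel) (by decide +kernel) (by decide +kernel) (by norm_num) (by norm_num) (by norm_num)
    (by decide +kernel)

/-- **`LfRow` for `U₄(3)`** -/
theorem row {F : Type*} [Field F] [Fintype F] (hF : Fintype.card F = 9) {G : Type*} [Group G] (e : G ≃* PSU 4 F 3) :
    LfRow G := by
  obtain ⟨f⟩ := psu_iso hF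
  exact row_K0.congr (e.trans f).symm

end Cfsg.Agent.H2.UFourThree
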