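import Cfsg.Agent.H2.Uniq
import Cfsg.Agent.H6.NoL
import Cfsg.Agent.S0252
import Cfsg.Agent.S0811
import Cfsg.Agent.S0812
import Cfsg.Agent.FooteOdd.SporMEleven

/-!
# Groups with a unique maximal 2-local subgroup over a Sylow 2-subgroup (helper2)

`UniqT G` for the Bender groups, `A₅`, `L₂(p)` (`p > 7` next to a power of 2), `L₃(3)`, `M₁₁`.
-/

set_option autoImplicit false

namespace Cfsg.Agent.H2.UniqRows

open Subgroup Cfsg Cfsg.Agent.Lib.Cores Matrix

universe u v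

variable {G : Type u} [Group G]

theorem of_quasi' [Finite G] {x y : G} (hx : x ^ 8 = 1) (hx4 : x ^ 4 ≠ 1) (hy : y * y = 1) (hy1 : y ≠ 1)
    (hy4 : y ≠ x ^ 4) (hyx : y * x = x ^ 3 * y) (hG : ¬ 32 ∣ Nat.card G) : UniqT G := by
  have hf : Fact (Nat.Prime 2) := ⟨Nat.prime_two⟩
  refine UniqT.of_quasi hx hx4 hy ?_ hyx hG
  have hord : orderOf x = 8 := orderOf_eq_prime_pow (p := 2) (n := 2) (by norm_num; exact hx4) (by norm_num; exact hx)
  rw [mem_zpowers_iff]
  rintro ⟨k, rfl⟩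
  rw [← _root_.zpow_add] at hy
  have h1 : ((8 : ℕ) : ℤ) ∣ k + k := by rw [← hord]; exact orderOf_dvd_iff_zpow_eq_one.2 hy
  obtain ⟨m, hm⟩ : ∃ m, k = 4 * m := ⟨k / 4, by omega⟩
  subst hm
  rcases Int.even_or_odd' m with ⟨j, rfl | rfl⟩
  · apply hy1
    rw [show (4 : ℤ) * (2 * j) = ((8 : ℕ) : ℤ) * j by push_cast; ring, _root_.zpow_mul, _root_.zpow_natCast, hx, _root_.one_zpow]
  · apply hy4
    rw [show (4 : ℤ) * (2 * j + 1) = ((8 : ℕ) : ℤ) * j + ((4 : ℕ) : ℤ) by push_cast; ring, _root_.zpow_add, _root_.zpow_mul,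
      _root_.zpow_natCast, hx, _root_.one_zpow, one_mul, _root_.zpow_natCast]

/-- a non-abelian simple group has trivial 2-core -/
theorem pCore_eq_bot [Finite G] [IsSimpleGroup G] (hG : ¬ IsMulCommutative G) : pCore 2 G = ⊥ := by
  have hf : Fact (Nat.Prime 2) := ⟨Nat.prime_two⟩
  have hn : (pCore 2 G).Normal := Lib.Cores.pCore_normal 2
  rcases hn.eq_bot_or_eq_top with h | h
  · exact h
  · exfalso
    have h1 : IsPGroup 2 (⊤ : Subgroup G) := by rw [← h]; exact pCore_isPGroup 2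
    have h2 : IsPGroup 2 G := h1.of_equiv topEquiv
    have h3 := h2.center_nontrivial
    have h4 : center G ≠ ⊥ := (nontrivial_iff_ne_bot _).1 h3
    have h5 := (inferInstance : (center G).Normal).eq_bot_or_eq_top.resolve_left h4
    apply hG
    refine ⟨⟨fun a b => ?_⟩⟩
    have h6 : b ∈ center G := by rw [h5]; exact mem_top b
    exact mem_center_iff.1 h6 a

theorem pCore_congr {K : Type v} [Group K] (e : G ≃* K) (h : pCore 2 G = ⊥) : pCore 2 K = ⊥ := by
  rw [← map_equiv_pCore e 2, h, Subgroup.map_bot]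

/-- a maximal subgroup which is a 2-group -/
theorem of_coatom [Finite G] [Nontrivial G] (hO : pCore 2 G = ⊥) {H : Subgroup G} (hH : IsCoatom H)
    (h2 : IsPGroup 2 H) : UniqT G := by
  obtain ⟨T, hT⟩ := h2.exists_le_sylow
  have hTt : (T : Subgroup G) ≠ ⊤ := by
    intro h
    have h1 : (T : Subgroup G) ≤ pCore 2 G := by
      refine le_pCore ?_ T.2
      rw [h]; infer_instance
    rw [hO, h, top_le_iff] at h1
    exact bot_ne_top h1
  have h3 : H = (T : Subgroup G) := by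
    by_contra hne
    exact hTt (hH.2 _ (lt_of_le_of_ne hT hne))
  exact UniqT.of_coatom hO T (h3 ▸ hH)

/-! ### rank one set-ups -/

section RankOne

open MulAction Cfsg.Agent.LieRecognition.RankOneBasic

theorem of_setup [Finite G] (h2 : 2 ∣ Nat.card G)
    {Ω : Type*} [MulAction G Ω] {a : Ω} {w : G} {Q : Subgroup G} (hS : IsRankOneSetup G Ω a w Q)
    (hQ : IsPGroup 2 Q) : UniqT G := by
  have hf : Fact (Nat.Prime 2) := ⟨Nat.prime_two⟩
  have hfin := finite_points hS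
  have hoddΩ : ¬ 2 ∣ Nat.card Ω := by
    have := odd_card_points hS
    rwa [← Nat.not_even_iff_odd, even_iff_two_dvd] at this
  intro T
  have hT1 : (T : Subgroup G) ≠ ⊥ := Sylow.ne_bot_of_dvd_card T h2
  obtain ⟨t, ht, htt, ht1, -⟩ := exists_central T.2 hT1
  obtain ⟨c, hc⟩ := T.2.nonempty_fixed_point_of_prime_not_dvd_card Ω hoddΩ
  have hcT : ∀ r ∈ (T : Subgroup G), r • c = c := fun r hr => hc ⟨r, hr⟩
  obtain ⟨g, hg⟩ := exists_smul_eq' hS a c
  have hQ1 : Q ≠ ⊥ := by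
    intro h
    have := hS.even_card
    rw [h] at this
    simp at this
  refine Uniq.of_le (N := normalizer (Q.map (MulAut.conj g).toMonoidHom : Set G)) ⟨_, hQ.map _, fun h => hQ1
    ((Subgroup.map_eq_bot_iff_of_injective _ (MulAut.conj g).injective).1 h), rfl⟩ ?_
  rintro M ⟨R, hR, hR1, rfl⟩ hTM m hm
  obtain ⟨u, huR, huu, hu1, huc⟩ := exists_central hR hR1
  obtain ⟨d, hd⟩ := hR.nonempty_fixed_point_of_prime_not_dvd_card Ω hoddΩ
  have hdR : ∀ r ∈ R, r • d = d := fun r hr => hd ⟨r, hr⟩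
  have hMd : ∀ h ∈ normalizer (R : Set G), h • d = d := by
    intro h hh
    refine fixed_unique hS hu1 huu (b := h • d) (c := d) ?_ (hdR u huR)
    have h1 : h⁻¹ * u * h ∈ R := by
      have := (mem_normalizer_iff.1 (inv_mem hh) u).1 huR
      simpa using this
    have h3 := hdR _ h1
    calc u • h • d = h • (h⁻¹ * u * h) • d := by rw [← mul_smul, ← mul_smul]; congr 1; group
      _ = h • d := by rw [h3]
  have hdc : d = c := fixed_unique hS ht1 htt (hMd t (hTM ht)) (hcT t ht)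
  have hmc : m • c = c := by rw [← hdc]; exact hMd m hm
  have h4 : g⁻¹ * m * g ∈ stabilizer G a := by
    rw [mem_stabilizer_iff, mul_smul, mul_smul, hg, hmc, ← hg, inv_smul_smul]
  have h5 := stabilizer_le_normalizer hS h4
  rw [mem_normalizer_iff] at h5 ⊢
  have key : ∀ x : G, x ∈ Q.map (MulAut.conj g).toMonoidHom ↔ g⁻¹ * x * g ∈ Q := by
    intro x
    constructor
    · rintro ⟨y, hy, rfl⟩
      have : g⁻¹ * (g * y * g⁻¹) * g = y := by group
      show g⁻¹ * (g * y * g⁻¹) * g ∈ Q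
      rw [this]; exact hy
    · intro hx
      exact ⟨_, hx, by show g * (g⁻¹ * x * g) * g⁻¹ = x; group⟩
  intro x
  show x ∈ Q.map (MulAut.conj g).toMonoidHom ↔ m * x * m⁻¹ ∈ Q.map (MulAut.conj g).toMonoidHom
  rw [key, key]
  have h6 := h5 (g⁻¹ * x * g)
  have e : g⁻¹ * m * g * (g⁻¹ * x * g) * (g⁻¹ * m * g)⁻¹ = g⁻¹ * (m * x * m⁻¹) * g := by group
  rw [e] at h6
  exact h6

end RankOne

/-! ### the rows -/

/-- `U₃(2ⁿ)` -/
theorem u3 [Finite G] (h2 : 2 ∣ Nat.card G) (F : Type) [Field F] [Fintype F] (n : ℕ) (hn : 1 ≤ n)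
    (hF : Fintype.card F = (2 ^ n) ^ 2) (h : Nonempty (G ≃* PSU 3 F (2 ^ n))) : UniqT G := by
  obtain ⟨e⟩ := h
  have : Fact (Nat.Prime 2) := ⟨Nat.prime_two⟩
  have hfin : Finite (PSU 3 F (2 ^ n)) := Finite.of_equiv _ e.toEquiv
  have hF' : Fintype.card F = 2 ^ (n * 2) := by rw [hF, pow_mul]
  have hch : CharP F 2 := charP_of_card_eq_prime_pow hF'
  have hσ : Fact (∀ x, iterateFrobenius F 2 n (iterateFrobenius F 2 n x) = x) := by
    refine ⟨fun x => ?_⟩
    rw [iterateFrobenius_def, iterateFrobenius_def, ← pow_mul, ← pow_two, ← hF, FiniteField.pow_card]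
  have hF2 : Nat.card F = (2 ^ n) ^ 2 := by rw [Nat.card_eq_fintype_card, hF]
  obtain ⟨H, S, w, ψ, hfaith, hsetup, -, -⟩ :=
    Cfsg.Agent.SuzukiRankOne.PSUModel.exists_model (σ := iterateFrobenius F 2 n) hn
      (fun x => iterateFrobenius_def 2 n x) hF2
  have hS : IsPGroup 2 S := by
    refine IsPGroup.of_card (n := n * 3) ?_
    rw [← Nat.card_congr ψ.toEquiv, Cfsg.Agent.LieRecognition.HermHeis.card_heis
      (Nat.one_lt_two_pow (by omega)) (fun x => iterateFrobenius_def 2 n x) hF2, ← pow_mul]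
  exact (of_setup (by rwa [← Nat.card_congr e.toEquiv]) hsetup hS).congr e

/-- the Suzuki groups -/
theorem sz [Finite G] (h2 : 2 ∣ Nat.card G) (h : Lie.IsoSuzuki G) : UniqT G := by
  obtain ⟨F, iF, iFin, m, hm, hF, ⟨e⟩⟩ := h
  have hfin : Finite ↥(Lie.Sz F (2 ^ (m + 1))) := Finite.of_equiv _ e.toEquiv
  have H := Cfsg.Agent.LieRecognition.SzMatrix.good hF
  have hS : IsPGroup 2 H.unip := by
    refine IsPGroup.of_card (n := (2 * m + 1) * 2) ?_
    rw [H.card_unip, Nat.card_eq_fintype_card, hF, ← pow_mul]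
  exact (of_setup (by rwa [← Nat.card_congr e.toEquiv]) (Cfsg.Agent.SuzukiRankOne.SzModel.setup H) hS).congr e

/-- `L₂(2ⁿ)` -/
theorem l2_even [Finite G] (h2 : 2 ∣ Nat.card G) {F : Type*} [Field F] [Fintype F] [CharP F 2]
    (e : G ≃* ProjectiveSpecialLinearGroup (Fin 2) F) : UniqT G :=
  UniqT.of_elementary h2 fun _ _ hz hz1 hzy => Cfsg.Agent.WeakTI.PslTwo.cent e hz hz1 hzy

/-- the Bender groups -/
theorem bender [Finite G] (h2 : 2 ∣ Nat.card G) (h : IsBenderGroup G) : UniqT G := by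
  rcases h with ⟨F, _, _, hF, -, ⟨e⟩⟩ | ⟨F, _, _, n, hn, hF, h⟩ | h
  · exact l2_even h2 e
  · exact u3 h2 F n (by omega) hF h
  · exact sz h2 h

/-- `A₅` is a Bender group -/
theorem bender_five {G : Type*} [Group G] (e : G ≃* alternatingGroup (Fin 5)) : IsBenderGroup G := by
  have h4 : Nat.card (GaloisField 2 2) = 4 := by
    rw [GaloisField.card 2 2 (by norm_num)]
    norm_num
  letI : Fintype (GaloisField 2 2) := Fintype.ofFinite _
  have h5 : Fintype.card (GaloisField 2 2) = 4 := by rw [← Nat.card_eq_fintype_card, h4]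
  obtain ⟨g⟩ := Cfsg.Agent.S0252.result (F := GaloisField 2 2) h5
  exact Or.inl ⟨GaloisField 2 2, inferInstance, inferInstance, inferInstance, h5.ge, ⟨e.trans g.symm⟩⟩

/-- `L₂(p)`, `p > 7` next to a power of 2 -/
theorem l2 [Finite G] [IsSimpleGroup G] (hG : ¬ IsMulCommutative G) {F : Type*} [Field F] [Fintype F]
    (hp : IsTwoPowerNeighbourPrime (Fintype.card F))
    (h7 : 7 < Fintype.card F) (e : G ≃* ProjectiveSpecialLinearGroup (Fin 2) F) : UniqT G := by
  obtain ⟨hp, hF⟩ := hp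
  have hfin : Finite (ProjectiveSpecialLinearGroup (Fin 2) F) := Finite.of_equiv _ e.toEquiv
  have hnt : Nontrivial (ProjectiveSpecialLinearGroup (Fin 2) F) := e.symm.toEquiv.nontrivial
  have hO := pCore_congr e (pCore_eq_bot hG)
  have hdih : ∀ {H : Subgroup (ProjectiveSpecialLinearGroup (Fin 2) F)} {n k : ℕ}, Nonempty (H ≃* DihedralGroup n) →
      n ≠ 0 → 2 * n = 2 ^ k → IsPGroup 2 H := by
    rintro H n k ⟨f⟩ hn hk
    have : NeZero n := ⟨hn⟩
    refine IsPGroup.of_card (n := k) ?_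
    rw [Nat.card_congr f.toEquiv, DihedralGroup.nat_card, hk]
  set q := Fintype.card F with hq
  have hq9 : q ≠ 9 := by intro h; rw [h] at hp; norm_num at hp
  refine UniqT.congr e ?_
  rcases hF with ⟨k, hk, hF⟩ | ⟨k, hF⟩
  · -- `q = 2 ^ k + 1`
    have hk3 : 3 ≤ k := by
      by_contra hcon
      have : k = 1 ∨ k = 2 := by omega
      rcases this with rfl | rfl <;> norm_num at hF <;> omega
    obtain ⟨j, rfl⟩ : ∃ j, k = j + 1 := ⟨k - 1, by omega⟩
    have hj : 4 ≤ 2 ^ j := by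
      calc 4 = 2 ^ 2 := by norm_num
        _ ≤ 2 ^ j := Nat.pow_le_pow_right (by norm_num) (by omega)
    have hq11 : q ≠ 11 := by
      intro h
      rw [h] at hF
      have h1 : 2 ^ (j + 1) = 10 := by omega
      have h3 : (5 : ℕ) ∣ 2 ^ (j + 1) := by rw [h1]; norm_num
      have := (Nat.Prime.dvd_of_dvd_pow (by norm_num : Nat.Prime 5) h3)
      omega
    obtain ⟨H, hH, hD⟩ := S0812.result (F := F) (q := q) rfl (by simp only [Finset.mem_insert, Finset.mem_singleton]; omega)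
    have hg : Nat.gcd 2 (q - 1) = 2 := by
      rw [hF, Nat.add_sub_cancel]
      exact Nat.gcd_eq_left (dvd_pow_self 2 (by omega))
    have hn : (q - 1) / Nat.gcd 2 (q - 1) = 2 ^ j := by
      rw [hg, hF, Nat.add_sub_cancel, pow_succ]
      omega
    rw [hn] at hD
    exact of_coatom hO hH (hdih (k := j + 1) hD (by positivity) (by rw [pow_succ]; ring))
  · have hk3 : 4 ≤ k := by
      by_contra hcon
      have h1 : 2 ^ k ≤ 2 ^ 3 := Nat.pow_le_pow_right (by norm_num) (by omega)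
      omega
    obtain ⟨j, rfl⟩ : ∃ j, k = j + 1 := ⟨k - 1, by omega⟩
    obtain ⟨H, hH, hD⟩ := S0811.result (F := F) (q := q) rfl (by simp only [Finset.mem_insert, Finset.mem_singleton]; omega)
    have h2j : 2 ^ (j + 1) = 2 * 2 ^ j := by rw [pow_succ]; ring
    have hg : Nat.gcd 2 (q - 1) = 2 := by
      refine Nat.gcd_eq_left ?_
      omega
    have hn : (q + 1) / Nat.gcd 2 (q - 1) = 2 ^ j := by
      rw [hg, hF]
      omega
    rw [hn] at hD
    exact of_coatom hO hH (hdih (k := j + 1) hD (by positivity) h2j.symm)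

/-- `L₃(3)` -/
theorem l33_zmod : UniqT (ProjectiveSpecialLinearGroup (Fin 3) (ZMod 3)) := by
  have h1 := Cfsg.Agent.S0243.result (F := ZMod 3) (ZMod.card 3) 3 (by norm_num)
  rw [Fin.prod_univ_three] at h1
  simp [-Nat.card_eq_fintype_card] at h1
  have h3 : Nat.card (ProjectiveSpecialLinearGroup (Fin 3) (ZMod 3)) = 16 * 351 := by omega
  let X : GL (Fin 2) (ZMod 3) := ⟨!![1, 1; 1, 0], !![0, 1; 1, 2], by decide, by decide⟩
  let Y : GL (Fin 2) (ZMod 3) := ⟨!![1, 0; 2, 2], !![1, 0; 2, 2], by decide, by decide⟩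
  have hinj := Cfsg.Agent.OddHalf.Small.L33.phi_injective 1
  have hmul : ∀ A B : GL (Fin 2) (ZMod 3), (A : Matrix (Fin 2) (Fin 2) (ZMod 3)) = B → A = B := fun A B h => Units.ext h
  refine of_quasi' (x := Cfsg.Agent.TwoFusion.PSL3Inv.phi 1 X) (y := Cfsg.Agent.TwoFusion.PSL3Inv.phi 1 Y)
    ?_ ?_ ?_ ?_ ?_ ?_ (by rw [h3]; decide)
  · rw [← map_pow, show X ^ 8 = 1 from hmul _ _ (by decide), map_one]
  · rw [← map_pow]
    intro h
    have h4 : X ^ 4 = 1 := hinj (h.trans (map_one _).symm)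
    exact absurd (congrArg (fun A : GL (Fin 2) (ZMod 3) => (A : Matrix (Fin 2) (Fin 2) (ZMod 3))) h4) (by decide)
  · rw [← map_mul, show Y * Y = 1 from hmul _ _ (by decide), map_one]
  · intro h
    have h4 : Y = 1 := hinj (h.trans (map_one _).symm)
    exact absurd (congrArg (fun A : GL (Fin 2) (ZMod 3) => (A : Matrix (Fin 2) (Fin 2) (ZMod 3))) h4) (by decide)
  · rw [← map_pow]
    intro h
    have h4 : Y = X ^ 4 := hinj h
    exact absurd (congrArg (fun A : GL (Fin 2) (ZMod 3) => (A : Matrix (Fin 2) (Fin 2) (ZMod 3))) h4) (by decide)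
  · rw [← map_pow, ← map_mul, ← map_mul, show Y * X = X ^ 3 * Y from hmul _ _ (by decide)]

theorem l33 [Finite G] {F : Type*} [Field F] [Fintype F] (hF : Fintype.card F = 3)
    (e : G ≃* ProjectiveSpecialLinearGroup (Fin 3) F) : UniqT G := by
  have hcard : Fintype.card (ZMod 3) = Fintype.card F := by rw [hF, ZMod.card]
  let e' : ZMod 3 ≃+* F := FiniteField.ringEquivOfCardEq hcard
  exact l33_zmod.congr (e.trans (LieClassical.FieldTransfer.pslCongr e').symm)

open Cfsg.Agent.FooteOdd.SporMEleven in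
set_option maxRecDepth 100000 in
theorem m11_aux : (∀ p : GolayPt, ((eT * eW * eT) ^ 8).1 p = p) ∧ ((eT * eW * eT) ^ 4).1 (some 2) ≠ some 2 ∧
    eW.1 (some 2) ≠ some 2 ∧ eW.1 (some 2) ≠ ((eT * eW * eT) ^ 4).1 (some 2) ∧
    ∀ p : GolayPt, (eW * (eT * eW * eT)).1 p = ((eT * eW * eT) ^ 3 * eW).1 p := by decide +kernel

open Cfsg.Agent.FooteOdd.SporMEleven in
/-- `M₁₁` -/
theorem m11 [Finite G] (h : Spor.IsoM11 G) : UniqT G := by
  obtain ⟨e⟩ := h
  obtain ⟨h1, h2, h3, h4, h5⟩ := m11_aux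
  refine UniqT.congr e (of_quasi' (x := eT * eW * eT) (y := eW) (ext11 h1) (fun h => h2 ?_) W_sq W_ne (fun h => h4 ?_)
    (ext11 h5) (by rw [card]; decide))
  · rw [h]; rfl
  · rw [← h]

end Cfsg.Agent.H2.UniqRows
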